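import Cfsg.Agent.Lib.MA.Co

/-! # A `2`-subgroup of `Co₁` normalized by a lift of `M₂₄` is the group of sign changes -/

set_option autoImplicit false

namespace Cfsg.Lib.Griess.MA

open Subgroup MulAction Cfsg.Lib.Leech Cfsg.Lib.Mon Cfsg.Lib.CoT Cfsg.Spor

theorem ord_map {K L : Type*} [Group K] [Group L] {φ : K →* L} (hφ : IsPGroup 2 φ.ker) {p : ℕ} (hp : p.Prime) (h2 : p ≠ 2)
    {k : K} (h : orderOf k = p) : orderOf (φ k) = p :=
  ((Nat.dvd_prime hp).1 (h ▸ orderOf_map_dvd φ k)).resolve_left fun e => by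
    obtain ⟨n, l⟩ := hφ ⟨k, orderOf_eq_one_iff.1 e⟩
    exact h2 ((Nat.prime_dvd_prime_iff_eq hp Nat.prime_two).1
      (hp.dvd_of_dvd_pow (h ▸ orderOf_dvd_of_pow_eq_one (congrArg Subtype.val l))))

variable {R S : Subgroup Co1} {g h : Co1}

theorem sub_eq (hR : IsPGroup 2 R) (hg : orderOf g = 23) (g1 : ∀ t ∈ R, g * t * g⁻¹ ∈ R) (le : S ≤ R)
    (g2 : ∀ t ∈ S, g * t * g⁻¹ ∈ S) (ne : S ≠ ⊥) : S = R :=
  have := finite_co1
  eq_of_le_of_card_ge le (by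
    rw [(card_cases hg (hR.to_le le) g2).resolve_left ne, (card_cases hg hR g1).resolve_left fun e => ne (le_bot_iff.1 (e ▸ le))])

theorem cm_or {a b : Co0} (e : pr1 a * pr1 b = pr1 b * pr1 a) : a * b = b * a ∨ a * b = negOne * (b * a) :=
  pr1_eq_iff.1 (by rwa [map_mul, map_mul])

theorem cen_lift (hR : IsPGroup 2 R) (hh : orderOf h = 11) (h1 : ∀ t ∈ R, h * t * h⁻¹ ∈ R)
    (ab : ∀ a ∈ R, ∀ b ∈ R, a * b = b * a) {a : Co0} (ha : pr1 a ∈ R) (c : h * pr1 a = pr1 a * h)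
    (e : ∀ t ∈ R, h * t = t * h → t = 1 ∨ t = pr1 a) {b : Co0} (hb : pr1 b ∈ R) : a * b = b * a := by
  by_contra n
  have : Fact (Nat.Prime 11) := ⟨by norm_num⟩
  have := finite_co0
  obtain ⟨k, rfl⟩ := QuotientGroup.mk'_surjective _ h
  have k1 : (k ^ 12) ^ 11 = 1 := by
    rw [← pow_mul, show 12 * 11 = 11 * 2 * 6 from rfl, pow_mul, pow_mul, sq]
    rcases (pr1_eq_iff (g := k ^ 11) (h := 1)).1 (by rw [map_pow, ← hh, pow_orderOf_eq_one, map_one]) with l | l <;>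
      simp [l, negOne_mul_self]
  have k2 : pr1 (k ^ 12) = pr1 k := by rw [map_pow, pow_succ, ← hh, pow_orderOf_eq_one, one_mul]
  rw [← k2] at h1 c e
  generalize k ^ 12 = k at k1 h1 c e
  have hP : IsPGroup 2 ↥(R.comap pr1 ⊓ centralizer {a}) := (hR.comap_of_ker_isPGroup pr1 (by
    rw [QuotientGroup.ker_mk']; exact IsPGroup.of_card (n := 1) card_center)).to_inf_left
  obtain ⟨j, hj⟩ := hP.exists_card_eq
  obtain ⟨t, ⟨t1, t2⟩, t3⟩ := exists_fix (T := {t | pr1 t ∈ R ∧ a * t ≠ t * a}) k1 (fun t ht => ⟨by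
    simpa only [map_mul, map_inv] using h1 _ ht.1, fun l => ht.2 (by
      rcases cm_or c with m | m
      · rw [← mul_right_inj k, ← mul_assoc, m, ← mul_left_inj k⁻¹, mul_assoc a, mul_assoc a, l, mul_assoc _ k⁻¹,
          (Commute.inv_left m).eq]; group
      · rw [← mul_right_inj k, ← mul_assoc, m, ← mul_left_inj k⁻¹, mul_assoc, mul_assoc, mul_assoc a, ← mul_assoc k, l,
          ← mul_assoc negOne, ← negOne_comm, mul_assoc _ (t * a), mul_assoc t, ← inv_mul_cancel_left k (a * k⁻¹),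
          ← mul_assoc k a, m]; simp only [mul_assoc, mul_inv_cancel_left, ← negOne_comm])⟩) (by
    rw [show {t | pr1 t ∈ R ∧ a * t ≠ t * a} = (b * ·) '' (R.comap pr1 ⊓ centralizer {a} : Subgroup Co0) from Set.ext fun t =>
      ⟨fun l => ⟨b⁻¹ * t, ⟨by simpa using mul_mem (inv_mem hb) l.1, mem_centralizer_singleton_iff.2 (by
        have e1 := (cm_or (ab _ ha _ hb)).resolve_left n
        have e2 := (cm_or (ab _ ha _ l.1)).resolve_left l.2
        rw [mul_assoc, inv_mul_eq_iff_eq_mul, ← mul_assoc, ← mul_assoc, ← mul_right_inj negOne, ← e2, ← mul_assoc, ← mul_assoc,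
          ← e1, mul_inv_cancel_right])⟩, by simp⟩, by
        rintro ⟨u, ⟨u1, u2⟩, rfl⟩
        exact ⟨map_mul pr1 _ _ ▸ mul_mem hb u1, fun l => n (by
          rwa [mul_assoc, mem_centralizer_singleton_iff.1 u2, ← mul_assoc, ← mul_assoc, mul_left_inj] at l)⟩⟩,
      Set.ncard_image_of_injective _ (mul_right_injective b), ← Nat.card_coe_set_eq, SetLike.coe_sort_coe, hj]
    exact fun l => absurd ((by norm_num : Nat.Prime 11).dvd_of_dvd_pow l) (by decide))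
  rcases e _ t1 (by rw [← map_mul, t3, map_mul]) with l | l
  · rcases pr1_eq_iff.1 (l.trans (map_one pr1).symm) with rfl | rfl <;> simp [negOne_comm] at t2
  · rcases pr1_eq_iff.1 l with rfl | rfl
    exacts [t2 rfl, t2 (by rw [← mul_assoc, negOne_comm])]

theorem pl_of (hR : IsPGroup 2 R) (hg : orderOf g = 23) (g1 : ∀ t ∈ R, g * t * g⁻¹ ∈ R) (gi : ∀ t ∈ R, g⁻¹ * t * g ∈ R)
    (hh : orderOf h = 11) (h1 : ∀ t ∈ R, h * t * h⁻¹ ∈ R) (ab : ∀ a ∈ R, ∀ b ∈ R, a * b = b * a) {a : Co1} (a1 : a ∈ R)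
    (a2 : h * a = a * h) (a3 : a ≠ 1) (a4 : ∀ t ∈ R, h * t = t * h → t = 1 ∨ t = a) (a5 : a * a = 1) : Pl a := by
  obtain ⟨x, rfl⟩ := QuotientGroup.mk'_surjective _ a
  obtain ⟨y, rfl⟩ := QuotientGroup.mk'_surjective _ g
  have k := sub_eq (S := (R.comap pr1 ⊓ centralizer (R.comap pr1)).map pr1) hR hg g1 (map_le_iff_le_comap.2 inf_le_left) (by
    rintro _ ⟨t, ⟨t1, t2⟩, rfl⟩
    exact ⟨y * t * y⁻¹, ⟨g1 _ t1, fun u hu => by
      rw [← mul_right_inj y⁻¹, ← mul_left_inj y]; simpa [mul_assoc] using t2 (y⁻¹ * u * y) (gi _ hu)⟩, rfl⟩)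
    (ne_bot_iff_exists_ne_one.2 ⟨⟨_, x, ⟨a1, fun u hu => (cen_lift hR hh h1 ab a1 a2 a4 hu).symm⟩, rfl⟩, fun e => a3 (congrArg Subtype.val e)⟩)
  have ab' {u v : Co0} (hu : pr1 u ∈ R) (hv : pr1 v ∈ R) : Commute u v := by
    obtain ⟨w, ⟨-, w1⟩, w2⟩ := k.ge hv
    rcases pr1_eq_iff.1 w2.symm with rfl | rfl
    exacts [w1 u hu, Commute.mul_right (negOne_comm u) (w1 u hu)]
  let E : Subgroup Co1 := ⟨⟨⟨{t | t ∈ R ∧ Pl t}, by
    rintro _ _ ⟨u1, u, rfl, u2⟩ ⟨v1, v, rfl, v2⟩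
    exact ⟨mul_mem u1 v1, u * v, rfl, by rw [← sq, (ab' u1 v1).mul_pow, sq, sq, u2, v2, mul_one]⟩⟩,
    one_mem _, 1, rfl, mul_one 1⟩, by
    rintro _ ⟨u1, u, rfl, u2⟩
    exact ⟨inv_mem u1, u⁻¹, rfl, by rw [← _root_.mul_inv_rev, u2, inv_one]⟩⟩
  by_contra n
  have x2 : x * x = negOne := by
    simpa using (pr1_eq_iff.1 (a5.trans (map_one pr1).symm : pr1 (x * x) = _)).resolve_left fun e => n ⟨x, rfl, e⟩
  refine n ((sub_eq (S := E) hR hg g1 (fun _ k => k.1) (fun t k => ⟨g1 t k.1, k.2.conj (isConj_iff.2 ⟨_, rfl⟩)⟩)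
    (ne_bot_iff_exists_ne_one.2 ⟨⟨_, mul_mem a1 (g1 _ a1), x * (y * x * y⁻¹), rfl, by
      rw [← sq, (ab' a1 (g1 _ a1)).mul_pow, sq, sq, conj_mul, x2, negOne_comm, mul_inv_cancel_right, negOne_mul_self]⟩,
      fun e => a3 (no_inv (n := 1) hg (mul_inv_eq_iff_eq_mul.1 (mul_left_cancel ((congrArg Subtype.val e).trans a5.symm)))
        ((sq _).trans a5))⟩)).ge a1).2

theorem signs_of_cc (hR : IsPGroup 2 R) (cR : Nat.card R = 2 ^ 11) (hh : orderOf h = 11) (h1 : ∀ t ∈ R, h * t * h⁻¹ ∈ R)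
    (ab : ∀ a ∈ R, ∀ b ∈ R, a * b = b * a) {a : Co1} (a1 : a ∈ R) (a2 : h * a = a * h) (k : IsConj cc a) :
    ∃ a : Co1, ∀ t, t ∈ R ↔ a * t * a⁻¹ ∈ signs := by
  have := finite_co1
  have : Fact (Nat.Prime 11) := ⟨by norm_num⟩
  obtain ⟨c, rfl⟩ := isConj_iff.1 k
  have st {t} (e : t * (c * cc * c⁻¹) = c * cc * c⁻¹ * t) : c⁻¹ * t * c⁻¹⁻¹ ∈ stabilizer Co1 e0 :=
    cen_dod_le dod0 card_dod0 (mem_centralizer_singleton_iff.2 (by
      rw [← mul_right_inj c, ← mul_left_inj c⁻¹]; simpa [mul_assoc, cc] using e))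
  obtain ⟨α, -, α1⟩ := M4.exists_m24
  let ψ : R →* stabilizer Co1 e0 := ((MulAut.conj c⁻¹).toMonoidHom.comp R.subtype).codRestrict _ fun t => st (ab _ t.2 _ a1)
  have o : orderOf (α ⟨_, st a2⟩) = 11 := ord_map ((IsPGroup.of_card card_signs).comap_subtype.to_le fun t => (α1 t).1)
    (by norm_num) (by decide) (by rw [← orderOf_coe, Mathieu.orderOf_conj', hh])
  have hP : IsPGroup 2 (α.comp ψ).range := hR.of_surjective _ (α.comp ψ).rangeRestrict_surjective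
  have k := modEq_cen (H := (α.comp ψ).range) (o ▸ pow_orderOf_eq_one _) (by
    rintro _ ⟨t, rfl⟩
    exact ⟨⟨_, h1 _ t.2⟩, by
      rw [MonoidHom.comp_apply, MonoidHom.comp_apply, ← map_inv, ← map_mul, ← map_mul]
      exact congrArg α (Subtype.ext (by simp [ψ, mul_assoc]))⟩)
  rw [show (α.comp ψ).range ⊓ centralizer {_} = ⊥ from eq_bot_iff.2 fun t ht => let ⟨n, e⟩ := hP ⟨t, ht.1⟩
    eq_one_of_comm (.inr o) (mem_centralizer_singleton_iff.1 ht.2) (congrArg Subtype.val e), card_bot] at k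
  obtain ⟨j, e⟩ := hP.exists_card_eq
  have l := (α.comp ψ).range.index_mul_card
  rw [e, Mathieu.card_M24] at l
  have : j ≤ 10 := by
    by_contra m
    exact absurd ((pow_dvd_pow 2 (show 11 ≤ j by omega)).trans (Dvd.intro_left _ l)) (by norm_num)
  have : j ≠ 10 := by
    rintro rfl
    obtain ⟨u, -, t, u1⟩ := F2.exists_conj_mem (k := 1) le_top hP (by rw [relIndex_top_right]; omega) (mem_top _)
      ((sq _).trans (sq_of_rep rep_B ord_B))
    have := card_dvd_of_le (show (α.comp ψ).range ≤ centralizer {u * _ * u⁻¹} from by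
      rintro _ ⟨s, rfl⟩
      rw [mem_centralizer_singleton_iff, ← u1, ← map_mul, ← map_mul, show s * t = t * s from Subtype.ext (ab _ s.2 _ t.2)])
    rw [(Grp.cj_cen).card, Mathieu.card_cen_2B, e] at this
    omega
  rw [e] at k
  obtain rfl : j = 0 := by interval_cases j <;> simp_all [Nat.ModEq]
  have le : R.map (MulAut.conj c⁻¹).toMonoidHom ≤ signs := by
    rintro _ ⟨t, ht, rfl⟩
    exact (α1 (ψ ⟨t, ht⟩)).1 (mem_bot.1 ((card_eq_one.1 e).le ⟨⟨t, ht⟩, rfl⟩))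
  refine ⟨c⁻¹, fun t => ?_⟩
  rw [← eq_of_le_of_card_ge le (by rw [card_signs, Core.card_map_conj, cR]), Core.mem_map_conj]
  simp [mul_assoc]

theorem signs_of (hR : IsPGroup 2 R) (ne : R ≠ ⊥) (hg : orderOf g = 23) (g1 : ∀ t ∈ R, g * t * g⁻¹ ∈ R) (hh : orderOf h = 11)
    (h1 : ∀ t ∈ R, h * t * h⁻¹ ∈ R) (nc : (∀ a ∈ R, ∀ b ∈ R, a * b = b * a) → ∃ t ∈ R, h * t ≠ t * h) :
    ∃ a : Co1, ∀ t, t ∈ R ↔ a * t * a⁻¹ ∈ signs := by
  have := finite_co1
  have : Fact (Nat.Prime 11) := ⟨by norm_num⟩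
  have cR := (card_cases hg hR g1).resolve_left ne
  have gi : ∀ t ∈ R, g⁻¹ * t * g ∈ R := fun t ht => by
    simpa using (mem_normalizer_iff.1 (inv_mem (mem_normalizer_fintype g1)) t).1 ht
  have ab : ∀ a ∈ R, ∀ b ∈ R, a * b = b * a := fun a ha b hb => ((sub_eq (S := R ⊓ centralizer R) hR hg g1 inf_le_left
    (fun t ht => ⟨g1 t ht.1, fun u hu => by
      rw [← mul_right_inj g⁻¹, ← mul_left_inj g]; simpa [mul_assoc] using ht.2 _ (gi u hu)⟩) (by
      have := (nontrivial_iff_ne_bot R).2 ne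
      obtain ⟨⟨⟨t, a⟩, b⟩, c⟩ := ne_bot_iff_exists_ne_one.1 hR.bot_lt_center.ne'
      exact ne_bot_iff_exists_ne_one.2 ⟨⟨t, a, fun u hu => congrArg Subtype.val (mem_center_iff.1 b ⟨u, hu⟩)⟩,
        fun e => c (Subtype.ext (Subtype.ext (congrArg Subtype.val e :)))⟩)).ge hb).2 a ha
  have c2 : Nat.card ↥(R ⊓ centralizer {h}) = 2 := by
    have k := modEq_cen (hh ▸ pow_orderOf_eq_one h) h1
    obtain ⟨j, j1, j2⟩ := (Nat.dvd_prime_pow Nat.prime_two).1 (cR ▸ card_dvd_of_le (inf_le_left : R ⊓ centralizer {h} ≤ R))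
    have : j ≠ 11 := fun e => let ⟨t, a, b⟩ := nc ab; b (mem_centralizer_singleton_iff.1 ((eq_of_le_of_card_ge inf_le_left
      (by rw [j2, cR, e])).ge a).2).symm
    rw [j2, cR] at k
    rw [j2]
    interval_cases j <;> simp_all [Nat.ModEq]
  obtain ⟨⟨a, a1, a2⟩, a3, a4⟩ := (Nat.card_eq_two_iff' 1).1 c2
  replace a2 := (mem_centralizer_singleton_iff.1 a2).symm
  replace a3 : a ≠ 1 := fun e => a3 (Subtype.ext e)
  replace a4 : ∀ t ∈ R, h * t = t * h → t = 1 ∨ t = a := fun t k l => or_iff_not_imp_left.2 fun m =>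
    congrArg Subtype.val (a4 ⟨t, k, mem_centralizer_singleton_iff.2 l.symm⟩ fun e => m (congrArg Subtype.val e))
  have a5 : a * a = 1 := (a4 _ (mul_mem a1 a1) (Commute.mul_right a2 a2)).resolve_right (by simpa using a3)
  rcases inv_cases (orderOf_eq_prime ((sq a).trans a5) a3) with k | k | k
  · obtain ⟨c, rfl⟩ := isConj_iff.1 k
    have := Subgroup.orderOf_dvd_natCard _ (show c⁻¹ * h * c⁻¹⁻¹ ∈ centralizer {Co2.zz} from mem_centralizer_singleton_iff.2 (by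
      rw [← mul_right_inj c, ← mul_left_inj c⁻¹]; simpa [mul_assoc] using a2))
    rw [Mathieu.orderOf_conj', hh, T2.C1.card_c] at this
    omega
  · exact signs_of_cc hR cR hh h1 ab a1 a2 k
  · exact (not_pl_bb ((pl_of hR hg g1 gi hh h1 ab a1 a2 a3 a4 a5).conj k.symm)).elim

theorem b1 {K : Type*} [Group K] [Finite K] (φ : K →* Co1) (μ : K →* M24) (hμ : Function.Surjective μ)
    (hP : IsPGroup 2 μ.ker) (hφ : IsPGroup 2 φ.ker) (ne : μ.ker.map φ ≠ ⊥) :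
    ∃ a : Co1, ∀ t, t ∈ μ.ker.map φ ↔ a * t * a⁻¹ ∈ signs := by
  have : Fact (Nat.Prime 11) := ⟨by norm_num⟩
  have : Fact (Nat.Prime 23) := ⟨by norm_num⟩
  have d := Mathieu.card_M24 ▸ card_dvd_of_surjective μ hμ
  obtain ⟨g, hg⟩ := exists_prime_orderOf_dvd_card' (G := K) 23 (.trans (by norm_num) d)
  obtain ⟨h, hh⟩ := exists_prime_orderOf_dvd_card' (G := K) 11 (.trans (by norm_num) d)
  have nm (k : K) : ∀ t ∈ μ.ker.map φ, φ k * t * (φ k)⁻¹ ∈ μ.ker.map φ := by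
    rintro _ ⟨t, ht, rfl⟩
    exact ⟨_, (μ.normal_ker.conj_mem t ht k), by simp⟩
  have g1 := ord_map hφ (by norm_num) (by decide) hg
  refine signs_of (hP.map φ) ne g1 (nm g) (ord_map hφ (by norm_num) (by decide) hh) (nm h) fun ab => by_contra fun n => ?_
  push Not at n
  have := Cfsg.Agent.S0365.result
  have : ((centralizer (μ.ker.map φ : Set Co1)).comap φ).Normal := ⟨fun t ht k u hu => by
    rw [← mul_right_inj (φ k)⁻¹, ← mul_left_inj (φ k)]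
    simpa [mul_assoc] using ht _ (nm k⁻¹ u hu)⟩
  rcases (this.map μ hμ).eq_bot_or_eq_top with e | e
  · have := ord_map hP (by norm_num) (by decide) hh
    rw [mem_bot.1 (e.le ⟨h, fun u hu => (n u hu).symm, rfl⟩), orderOf_one] at this
    omega
  · obtain ⟨c, c1, c2⟩ := e.ge (mem_top (μ g))
    refine ne (eq_bot_iff.2 fun t ht => let ⟨j, l⟩ := hP.map φ ⟨t, ht⟩; no_inv g1 ?_ (congrArg Subtype.val l))
    rw [← mul_inv_cancel_left c g, map_mul]
    exact Commute.mul_left (c1 t ht).symm (ab _ ⟨_, by simp [c2], rfl⟩ t ht)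

end Cfsg.Lib.Griess.MA
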