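import Cfsg.Agent.Lib.MT.Q

/-! # A subgroup of shape `2 ^ (1 + 24) . Co₁` of an arbitrary group, with coordinates -/

set_option autoImplicit false

namespace Cfsg.Lib.Griess

open Finset Matrix Subgroup Cfsg.Lib.Leech Cfsg.Lib.Mon Cfsg.Lib.ES

namespace MA

universe u

/-- A group with a subgroup of shape `2 ^ (1 + 24) . Co₁`, with coordinates. -/
class AQ where
  /-- the group -/
  G : Type u
  [grp : Group G]
  /-- the subgroup -/
  C : Subgroup G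
  /-- the coordinates on the extraspecial group -/
  q : Q →* G
  inj : Function.Injective q
  mem : ∀ x, q x ∈ C
  /-- the map onto `Co₁` -/
  ρ : C →* Spor.Co1
  surj : Function.Surjective ρ
  ker : ∀ g : C, ρ g = 1 ↔ (g : G) ∈ q.range
  conj : ∀ (g : C) x, ∃ y, g * q x * (g : G)⁻¹ = q y ∧ piQ y = ρ g • piQ x

variable [AQ]

/-- the group -/
abbrev Aut : Type _ := AQ.G
instance instGroupAut : Group Aut := AQ.grp
/-- the coordinates -/
abbrev qV : Q →* Aut := AQ.q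
theorem qV_injective : Function.Injective qV := AQ.inj
/-- the subgroup `C` -/
abbrev CZ : Subgroup Aut := AQ.C
/-- the map `C → Co₁` -/
abbrev rhoC : CZ →* Spor.Co1 := AQ.ρ
theorem piQ_conj (g : CZ) {x y : Q} (e : g * qV x * (g : Aut)⁻¹ = qV y) : piQ y = rhoC g • piQ x :=
  let ⟨_, a, b⟩ := AQ.conj g x
  qV_injective (a.symm.trans e) ▸ b
theorem rhoC_eq_one {g : CZ} : rhoC g = 1 ↔ (g : Aut) ∈ qV.range := AQ.ker g
theorem qV_mem (q : Q) : qV q ∈ CZ := AQ.mem q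
theorem card_range_qV : Nat.card qV.range = 2 ^ (2 * 12 + 1) :=
  (Nat.card_congr (MonoidHom.ofInjective qV_injective).toEquiv).symm.trans card_Q
theorem exists_conj {c : Aut} (hc : c ∈ CZ) (x : Q) : ∃ y, c * qV x * c⁻¹ = qV y :=
  let ⟨y, e, _⟩ := AQ.conj ⟨c, hc⟩ x; ⟨y, e⟩
theorem conj_z {n : Aut} (h : n ∈ CZ) : n * qV zQ * n⁻¹ = qV zQ := by
  obtain ⟨y, e⟩ := exists_conj h zQ
  rcases piQ_eq_zero ((piQ_conj ⟨n, h⟩ e).trans (by rw [piQ_zQ, smul_zero])) with rfl | rfl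
  · exact (zQ_ne_one (qV_injective (by simpa using e))).elim
  · exact e

theorem ker_rhoC : rhoC.ker = qV.range.subgroupOf CZ := Subgroup.ext fun _ => rhoC_eq_one

theorem card_CZ : Nat.card CZ = 2 ^ 25 * Nat.card Spor.Co1 := by
  rw [← card_mul_index rhoC.ker, index_ker, MonoidHom.range_eq_top.2 AQ.surj, card_top, ker_rhoC,
    Nat.card_congr (subgroupOfEquivOfLe (by rintro _ ⟨x, rfl⟩; exact qV_mem x)).toEquiv, card_range_qV]

instance finite_CZ : Finite CZ := Nat.finite_of_card_ne_zero (by rw [card_CZ, card_Co1]; norm_num)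

/-- the central involution `z` -/
abbrev zA : Aut := qV zQ
/-- the involution `ω = x_Ω` -/
abbrev wA : Aut := qV aOm
/-- the cocode element `b_δ` -/
def bq (δ : W) : Aut := qV (qe 0 0 δ)
/-- `z ^ s x_d` -/
def xq (s : ZMod 2) (d : Cd) : Aut := qV (qe s d (th d))
/-- the centralizer of the four-group `⟨z, ω⟩` -/
def NV : Subgroup Aut := CZ ⊓ centralizer {wA}

theorem smul_om {n : CZ} : rhoC n • om = om ↔ n * wA * (n : Aut)⁻¹ = wA ∨ n * wA * (n : Aut)⁻¹ = qV (zQ * aOm) := by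
  obtain ⟨y, e⟩ := exists_conj n.2 aOm
  rw [← piQ_conj n e, e, piQ_eq_iff, qV_injective.eq_iff, qV_injective.eq_iff]

theorem comm_z {g : Aut} (h : g ∈ CZ) : g * zA = zA * g := mul_inv_eq_iff_eq_mul.1 (conj_z h)
theorem mem_NV {g : Aut} : g ∈ NV ↔ g ∈ CZ ∧ g * wA = wA * g := by
  rw [NV, Subgroup.mem_inf, mem_centralizer_singleton_iff]
theorem NV_z {g : Aut} (h : g ∈ NV) : g * zA = zA * g := comm_z h.1
theorem NV_le : NV ≤ CZ := inf_le_left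

theorem qV_conj (x y : Q) : qV x * qV y * (qV x)⁻¹ = qV (zp (pr x.d y.c + pr y.d x.c)) * qV y := by
  rw [← map_inv, ← map_mul, ← map_mul, conj_eq, map_mul]

theorem qV_comm {x y : Q} (h : pr x.d y.c + pr y.d x.c = 0) : qV x * qV y = qV y * qV x := by
  rw [← mul_inv_eq_iff_eq_mul, qV_conj, h, zp_zero, map_one, one_mul]

theorem pr_eq_of_comm {x y : Q} (h : qV x * qV y = qV y * qV x) : pr x.d y.c + pr y.d x.c = 0 := by
  rw [← mul_inv_eq_iff_eq_mul, qV_conj, mul_eq_right, ← map_one qV] at h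
  exact congrArg Q.s (qV_injective h)

theorem qV_mem_NV {s : ZMod 2} {d : Cd} {δ : W} : qV (qe s d δ) ∈ NV ↔ δ ⬝ᵥ 1 = 0 := by
  rw [mem_NV, dotProduct_comm]
  exact ⟨fun h => by simpa using pr_eq_of_comm h.2, fun h => ⟨qV_mem _, qV_comm (by simpa using h)⟩⟩

theorem xq_mem (s : ZMod 2) (d : Cd) : xq s d ∈ NV := qV_mem_NV.2 (th_dot_one d)
theorem bq_mem {δ : W} (h : δ ⬝ᵥ 1 = 0) : bq δ ∈ NV := qV_mem_NV.2 h
theorem bq_mem_CZ (δ : W) : bq δ ∈ CZ := qV_mem _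
theorem zA_mem : zA ∈ NV := by rw [zA, zQ_eq]; exact qV_mem_NV.2 (by simp)
theorem wA_mem : wA ∈ NV := by rw [wA, aOm_eq]; exact qV_mem_NV.2 (by simp)

theorem bq_add (δ ε : W) : bq (δ + ε) = bq δ * bq ε := by simp [bq, ← map_mul, qe_mul]
theorem bq_code {δ : W} (h : δ ∈ golayCode) : bq δ = 1 := by
  rw [bq, ← map_one qV]; congr 1; ext1 <;> simp [cs_eq_zero.2 h]
theorem bq_zero : bq 0 = 1 := bq_code (zero_mem _)
theorem bq_eq_one {δ : W} : bq δ = 1 ↔ δ ∈ golayCode :=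
  ⟨fun h => cs_eq_zero.1 (congrArg Q.c (qV_injective (h.trans (map_one qV).symm))), bq_code⟩
theorem bq_mul_self (δ : W) : bq δ * bq δ = 1 := by rw [← bq_add, w_add_self, bq_zero]
theorem bq_inv (δ : W) : (bq δ)⁻¹ = bq δ := inv_eq_of_mul_eq_one_right (bq_mul_self δ)
theorem bq_comm (δ ε : W) : bq δ * bq ε = bq ε * bq δ := by rw [← bq_add, add_comm, bq_add]
theorem xq_add (t s : ZMod 2) (d : Cd) : xq (t + s) d = qV (zp t) * xq s d := by rw [xq, xq, ← map_mul, zp_mul_qe]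
theorem xq_zero (s : ZMod 2) : xq s 0 = qV (zp s) := by rw [xq]; congr 1; ext1 <;> simp
theorem xq_Om (s : ZMod 2) : xq s Om = qV (zp s) * wA := by rw [xq, ← map_mul]; congr 1; ext1 <;> simp
theorem xq_mul (s t : ZMod 2) (d e : Cd) :
    xq s d * xq t e = xq (s + t + (e : W) ⬝ᵥ th d) (d + e) * bq ((d : W) * e) := by
  rw [xq, xq, xq, bq, ← map_mul, ← map_mul, qe_mul, qe_mul]
  refine congrArg qV (qe_eq_iff.2 ⟨by simp, by simp, ?_⟩)
  have : th d + th e + (th ((d + e : Cd) : W) + (d : W) * e) = th ((d : W) + e) + th d + th e + (d : W) * e := by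
    rw [Submodule.coe_add]; abel
  rw [this]; exact th_add d e
theorem xq_mul_self (s : ZMod 2) (d : Cd) : xq s d * xq s d = qV (zp (qw d)) := by
  rw [xq, ← map_mul, mul_self_eq]; simp [th_self]
theorem bq_conj_xq (δ : W) (s : ZMod 2) (d : Cd) : bq δ * xq s d * bq δ = xq ((d : W) ⬝ᵥ δ + s) d := by
  rw [xq_add]
  nth_rw 2 [← bq_inv]
  rw [xq, bq, qV_conj]; simp
theorem xq_comm {d e : Cd} (h : hw ((d : W) * e) = 0) (s t : ZMod 2) : xq s d * xq t e = xq t e * xq s d :=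
  qV_comm (by simp only [qe_d, qe_c, pr_cs]; rw [add_comm, th_comm, h])
theorem zp_cases (s : ZMod 2) : qV (zp s) = 1 ∨ qV (zp s) = zA := by
  rcases z2_cases s with rfl | rfl
  exacts [.inl (by rw [zp_zero, map_one]), .inr rfl]

theorem bq_conj_wA (δ : W) : bq δ * wA * bq δ = qV (zp (δ ⬝ᵥ 1)) * wA := by
  have := bq_conj_xq δ 0 Om
  rwa [xq_Om, xq_Om, zp_zero, map_one, one_mul, add_zero, coe_Om, dotProduct_comm] at this

theorem zA_mul_self : zA * zA = 1 := by rw [← map_mul, zQ_mul_self, map_one]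
theorem wA_mul_self : wA * wA = 1 := by
  have := xq_mul_self 0 Om
  rwa [xq_Om, zp_zero, map_one, one_mul, coe_Om, qw_one, zp_zero, map_one] at this

theorem xq_comm_bq {s : ZMod 2} {d : Cd} {δ : W} : Commute (xq s d) (bq δ) ↔ (d : W) ⬝ᵥ δ = 0 :=
  ⟨fun h => by simpa using pr_eq_of_comm h, fun h => qV_comm (by simpa using h)⟩

/-- `g ∈ C` induces the monomial map `(σ, c)` on `Λ / 2 Λ` -/
def Ind (g : Aut) (σ : M24) (c : Cd) : Prop := ∃ h : g ∈ CZ, rhoC ⟨g, h⟩ = mo σ c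

/-- `g` acts on the even cocode modulo `⟨z, ω⟩` by `σ` -/
def Dp (g : Aut) (σ : M24) : Prop :=
  ∀ (s n : ZMod 2) (δ : W), δ ⬝ᵥ 1 = 0 → ∃ t m : ZMod 2, g * qV (qe s (n • Om) δ) * g⁻¹ = qV (qe t (m • Om) (sW σ δ))

variable {g k : Aut} {σ ρ : M24} {c d : Cd}

theorem Ind.mem (h : Ind g σ c) : g ∈ CZ := h.1

theorem Ind.mul (h : Ind g σ c) (h' : Ind k ρ d) : Ind (g * k) (σ * ρ) (c + sC σ d) :=
  ⟨mul_mem h.1 h'.1, by rw [← mo_mul, QuotientGroup.mk_mul, ← h.2, ← h'.2, ← map_mul]; rfl⟩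

theorem ind_one_iff : Ind g 1 0 ↔ ∃ q, qV q = g := by
  rw [Ind, mo_one]
  exact ⟨fun ⟨_, h⟩ => rhoC_eq_one.1 h, fun ⟨q, h⟩ => ⟨h ▸ qV_mem q, rhoC_eq_one.2 ⟨q, h⟩⟩⟩

theorem ind_qV (q : Q) : Ind (qV q) 1 0 := ind_one_iff.2 ⟨q, rfl⟩

theorem Ind.add_Om (h : Ind g σ c) : Ind g σ (c + Om) := ⟨h.1, h.2.trans (mo_Om σ c).symm⟩

theorem Ind.piQ (h : Ind g σ c) {x y : Q} (e : g * qV x * g⁻¹ = qV y) : piQ y = mo σ c • piQ x := by
  rw [← mk_smul, ← h.2]; exact piQ_conj ⟨g, h.1⟩ e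

theorem Ind.conj (h : Ind g σ c) (x : Q) : ∃ y, g * qV x * g⁻¹ = qV y ∧ Griess.piQ y = mo σ c • Griess.piQ x :=
  let ⟨y, e⟩ := exists_conj h.1 x
  ⟨y, e, h.piQ e⟩

theorem Ind.conj' (h : Ind g σ c) {x y : Q} (e : mo σ c • Griess.piQ x = Griess.piQ y) :
    ∃ s, g * qV x * g⁻¹ = qV (zp s * y) := by
  obtain ⟨w, e', h⟩ := h.conj x
  rcases piQ_eq_iff.1 (h.trans e) with rfl | rfl
  exacts [⟨0, by rw [e', zp_zero, one_mul]⟩, ⟨1, e'⟩]

theorem Ind.eW (h : Ind g σ c) (d : Cd) (i : Pt) :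
    ∃ s, g * qV (eW d i) * g⁻¹ = qV (zp s * eW (c + sC σ d) ((σ : Equiv.Perm Pt) i)) :=
  h.conj' (by rw [← mk_lW, Leech.smul_mk, mo_lW, mk_lW])

theorem exists_ind {g : CZ} (h : rhoC g • om = om) : ∃ σ c, Ind g σ c := by
  obtain ⟨c, e⟩ := QuotientGroup.mk_surjective (rhoC g)
  rw [← e, mk_smul] at h
  obtain ⟨σ, d, rfl⟩ := exists_mo h
  exact ⟨σ, d, g.2, e.symm⟩

theorem exists_ind_NV (h : g ∈ NV) : ∃ σ c, Ind g σ c :=
  exists_ind (g := ⟨g, NV_le h⟩) (smul_om.2 (.inl (mul_inv_eq_iff_eq_mul.2 (mem_NV.1 h).2)))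

theorem exists_NV (σ : M24) (c : Cd) : ∃ g ∈ NV, Ind g σ c := by
  obtain ⟨g, e⟩ := AQ.surj (mo σ c)
  have h : Ind g σ c := ⟨g.2, e⟩
  rcases smul_om.1 (show rhoC g • om = om by rw [h.2, mk_smul, mo_om]) with k | k
  · exact ⟨g, mem_NV.2 ⟨g.2, mul_inv_eq_iff_eq_mul.1 k⟩, h⟩
  · refine ⟨bq (e1 none) * g, mem_NV.2 ⟨mul_mem (bq_mem_CZ _) g.2, ?_⟩,
      by simpa [bq] using (ind_qV (qe 0 0 (e1 none))).mul h⟩
    have := bq_conj_wA (e1 none)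
    rw [e1_dot, Pi.one_apply, zp_one, ← map_mul, ← k] at this
    rw [mul_assoc, mul_inv_eq_iff_eq_mul.1 this.symm]
    simp only [← mul_assoc, bq_mul_self, one_mul]

theorem Ind.dp (h : Ind g σ c) : Dp g σ := fun s n _ e =>
  let ⟨t, k⟩ := h.conj' (mo_even σ c s n e)
  ⟨_, _, k.trans (by rw [zp_mul_qe])⟩

theorem Dp.unique (h : Dp g σ) (h' : Dp g ρ) : σ = ρ := Subtype.ext (Equiv.ext fun i => by
  by_contra n
  have k (j) (hj : j ≠ i) : (σ : Equiv.Perm Pt) i = (ρ : Equiv.Perm Pt) j := by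
    obtain ⟨_, _, a⟩ := h 0 0 _ (pair_dot_one i j)
    obtain ⟨_, _, b⟩ := h' 0 0 _ (pair_dot_one i j)
    have := (qe_eq_iff.1 (qV_injective (a.symm.trans b))).2.2
    have w := wt_add (sW σ (e1 i + e1 j)) (sW ρ (e1 i + e1 j))
    rw [wt_sW, wt_sW, wt_pair hj.symm] at w
    replace this := congrFun (eq_zero_of_wt_lt this (by omega)) ((σ : Equiv.Perm Pt) i)
    by_contra m
    simp [sW_add, sW_e1, e1_apply, n, m, hj.symm] at this
  obtain ⟨j, l, h1, h2, h3⟩ := (by decide : ∀ i : Pt, ∃ j l, j ≠ i ∧ l ≠ i ∧ j ≠ l) i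
  exact h3 ((ρ : Equiv.Perm Pt).injective ((k j h1).symm.trans (k l h2))))

theorem Dp.mul (h : Dp g σ) (h' : Dp k ρ) : Dp (g * k) (σ * ρ) := fun s n δ e => by
  obtain ⟨t, m, a⟩ := h' s n δ e
  obtain ⟨r, l, b⟩ := h t m _ (sW_even ρ e)
  exact ⟨r, l, by rw [sW_mul', ← b, ← a]; group⟩

theorem dp_one : Dp 1 1 := fun s n δ _ => ⟨s, n, by simp; rfl⟩

theorem Dp.pow (h : Dp g σ) (n : ℕ) : Dp (g ^ n) (σ ^ n) := by
  induction n with
  | zero => rw [pow_zero, pow_zero]; exact dp_one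
  | succ n ih => rw [pow_succ, pow_succ]; exact ih.mul h

theorem Dp.inv (h : Dp g σ) (hg : IsOfFinOrder g) : Dp g⁻¹ σ⁻¹ := by
  have p : 0 < orderOf g * orderOf σ := Nat.mul_pos hg.orderOf_pos (orderOf_pos σ)
  have := h.pow (orderOf g * orderOf σ - 1)
  rwa [pow_sub _ p, pow_sub _ p, pow_mul, pow_mul', pow_orderOf_eq_one, pow_orderOf_eq_one, one_pow, one_pow, one_mul,
    one_mul, pow_one, pow_one] at this

theorem fin_of_mem (h : g ∈ CZ) : IsOfFinOrder g := CZ.subtype.isOfFinOrder (isOfFinOrder_of_finite (⟨g, h⟩ : CZ))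

theorem Ind.of_dp (h : Ind g σ c) (h' : Dp g ρ) : Ind g ρ c := h.dp.unique h' ▸ h

theorem Ind.fix (h : Ind g σ c) {i : Pt} (e : g * bq (e1 i) = bq (e1 i) * g) :
    (σ : Equiv.Perm Pt) i = i ∧ Ind g σ 0 := by
  have := h.piQ (mul_inv_eq_iff_eq_mul.2 e)
  rw [← eW_zero, ← mk_lW, Leech.smul_mk, mo_lW, mk_lW, mk_lW, sC_zero, add_zero] at this
  obtain ⟨h1, rfl | rfl⟩ := eq_of_piQ_eW this
  exacts [⟨h1, h⟩, ⟨h1, by simpa using h.add_Om⟩]

theorem Ind.xq (h : Ind g σ 0) (s : ZMod 2) (d : Cd) : ∃ t, g * xq s d * g⁻¹ = xq t (sC σ d) :=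
  let ⟨t, e⟩ := h.conj' (x := qe s d (th d)) (y := qe 0 (sC σ d) (th (sC σ d))) (by
    rw [piQ_xq, Leech.smul_mk, mo_lamC, ← piQ_xq 0])
  ⟨_, e.trans (by rw [zp_mul_qe]; rfl)⟩

theorem Ind.xq_d (h : Ind g σ 0) {s : ZMod 2} {d : Cd} {y : Q} (e : g * MA.xq s d * g⁻¹ = qV y) : y.d = sC σ d :=
  let ⟨_, k⟩ := h.xq s d
  congrArg Q.d (qV_injective (e.symm.trans k))

theorem qV_pow_four (q : Q) : qV q ^ 4 = 1 := by
  rw [show 4 = 2 * 2 from rfl, pow_mul, sq, sq, ← map_mul, ← map_mul, mul_self_eq q, ← zp_add, z2_add_self, zp_zero,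
    map_one]

theorem pow_eight (h : g ∈ NV) (h' : Dp g 1) : g ^ 8 = 1 := by
  obtain ⟨σ, c, k⟩ := exists_ind_NV h
  obtain ⟨q, e⟩ := ind_one_iff.1 (by simpa using (k.of_dp h').mul (k.of_dp h'))
  rw [show 8 = 2 * 4 from rfl, pow_mul, sq, ← e, qV_pow_four]

theorem qV_qe (s : ZMod 2) (d : Cd) (δ : W) : qV (qe s d δ) = xq s d * bq (th d + δ) := by
  rw [xq, bq, ← map_mul, qe_mul, ← add_assoc]; simp

theorem exists_xq_bq {q : Q} (h : qV q ∈ NV) : ∃ s d γ, γ ⬝ᵥ 1 = 0 ∧ qV q = xq s d * bq γ := by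
  obtain ⟨s, d, δ, rfl⟩ := qe_surj q
  exact ⟨s, d, _, by rw [add_dotProduct, th_dot_one, qV_mem_NV.1 h, add_zero], qV_qe s d δ⟩

end MA

end Cfsg.Lib.Griess
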