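import Cfsg.Agent.Lib.MA.B1
import Cfsg.Agent.Lib.MA.Q

/-! # Subgroups of `Q` normalized by an element of order three commuting with a lift of `M₂₄` -/

set_option autoImplicit false

namespace Cfsg.Lib.Griess.MA

open Subgroup MulAction Cfsg.Lib.Leech Cfsg.Lib.Mon Cfsg.Lib.ES Cfsg.Spor

theorem exists_W {G : Type*} [Group G] {S Z : Subgroup G} {x : G} (hx : ∀ s ∈ S, x * s * x⁻¹ ∈ S)
    (c1 : ∀ t ∈ Z, ∀ s ∈ S, s * t = t * s) (sq : ∀ s ∈ S, s * s ∈ Z) :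
    ∃ W : Subgroup G, ∀ s, s ∈ W ↔ s ∈ S ∧ x * (x * s * x⁻¹) * x⁻¹ * (x * s * x⁻¹) * s ∈ Z := by
  have : (Z.subgroupOf S).Normal := ⟨fun t ht s => mem_subgroupOf.2 (by
    rw [coe_mul, coe_mul, c1 _ (mem_subgroupOf.1 ht) _ s.2, coe_inv, mul_inv_cancel_right]; exact mem_subgroupOf.1 ht)⟩
  have h2 (a : S ⧸ Z.subgroupOf S) : a * a = 1 := by
    obtain ⟨s, rfl⟩ := QuotientGroup.mk_surjective a
    exact (QuotientGroup.eq_one_iff (s * s)).2 (sq s s.2)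
  let _ : CommGroup (S ⧸ Z.subgroupOf S) := ⟨fun a b => (Commute.of_orderOf_dvd_two (fun g => orderOf_dvd_of_pow_eq_one
    ((pow_two g).trans (h2 g))) a b).eq⟩
  let ξ : S →* S := ((MulAut.conj x).toMonoidHom.comp S.subtype).codRestrict _ fun s => hx s s.2
  let π := QuotientGroup.mk' (Z.subgroupOf S)
  refine ⟨(π.comp (ξ.comp ξ) * π.comp ξ * π).ker.map S.subtype, fun s => ⟨?_, fun h => ⟨⟨s, h.1⟩, ?_, rfl⟩⟩⟩
  · rintro ⟨s, h, rfl⟩
    exact ⟨s.2, (QuotientGroup.eq_one_iff (ξ (ξ s) * ξ s * s)).1 h⟩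
  · exact (QuotientGroup.eq_one_iff (N := Z.subgroupOf S) (ξ (ξ ⟨s, h.1⟩) * ξ ⟨s, h.1⟩ * ⟨s, h.1⟩)).2 h.2

theorem dvd_card_range {K L : Type*} [Group K] [Group L] [Finite K] {φ : K →* L} (hφ : IsPGroup 2 φ.ker) {n : ℕ} (h : Odd n)
    (e : n ∣ Nat.card K) : n ∣ Nat.card φ.range := by
  obtain ⟨j, k⟩ := hφ.exists_card_eq
  rw [← card_mul_index φ.ker, index_ker, k] at e
  exact (Nat.Coprime.pow_right j (Nat.coprime_two_right.2 h)).dvd_of_dvd_mul_left e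

variable [AQ]

theorem pgroup_Q : IsPGroup 2 qV.range := IsPGroup.of_card card_range_qV
theorem pgroup_ker : IsPGroup 2 rhoC.ker := ker_rhoC ▸ pgroup_Q.comap_subtype
instance finite_range : Finite qV.range := Nat.finite_of_card_ne_zero (by rw [card_range_qV]; norm_num)

variable {g x p : Aut} {S K : Subgroup Aut}

theorem fix_iff (hg : g ∈ CZ) (o : orderOf g = 23) {y : Q} : rhoC ⟨g, hg⟩ • piQ y = piQ y ↔ g * qV y = qV y * g := by
  refine ⟨fun h => ?_, fun h => (piQ_conj ⟨g, hg⟩ (mul_inv_eq_iff_eq_mul.2 h)).symm⟩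
  obtain ⟨w, e⟩ := exists_conj hg y
  rcases piQ_eq_iff.1 ((piQ_conj ⟨g, hg⟩ e).trans h) with rfl | rfl
  · exact mul_inv_eq_iff_eq_mul.1 e
  have : Commute (g ^ 2) (qV y) := mul_inv_eq_iff_eq_mul.1 (by
    rw [sq, _root_.mul_inv_rev, mul_assoc g g, mul_assoc g, ← mul_assoc (g * _), e, map_mul, ← mul_assoc g, ← _root_.conj_mul,
      conj_z hg, e, ← map_mul, ← mul_assoc, zQ_mul_self, one_mul])
  have := (this.pow_left 12).eq
  rwa [← pow_mul, show 2 * 12 = 23 + 1 from rfl, pow_succ, ← o, pow_orderOf_eq_one, one_mul] at this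

theorem ord_rho (hg : g ∈ CZ) (o : orderOf g = 23) : orderOf (rhoC ⟨g, hg⟩) = 23 :=
  ord_map pgroup_ker (by norm_num) (by decide) ((orderOf_mk g hg).trans o)

theorem sq_eq {y : Q} {s : ZMod 2} (h : q2 (piQ y) = s) : qV y * qV y = qV (zp s) := by rw [← map_mul, mul_self_eq_q2, h]

theorem z_ne : zA ≠ 1 := fun e => zQ_ne_one (qV_injective (e.trans (map_one qV).symm))

theorem card_fixQ (hg : g ∈ CZ) (o : orderOf g = 23) : Nat.card ↥(qV.range ⊓ centralizer {g}) ≤ 8 := by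
  obtain ⟨a, i, h, -⟩ := f23 (ord_rho hg o)
  obtain ⟨u, hu⟩ := piQ_surjective (a • om)
  obtain ⟨v, hv⟩ := piQ_surjective (a • wv i)
  have : ∀ t : ↥(qV.range ⊓ centralizer {g}), ∃ p : Fin 4 × ZMod 2, qV (zp p.2 * ![1, u, v, u * v] p.1) = t := by
    rintro ⟨_, ⟨y, rfl⟩, k⟩
    have := (h _).1 ((fix_iff hg o).2 (mem_centralizer_singleton_iff.1 k).symm)
    rw [smul_add, ← hu, ← hv, ← piQ_mul, ← piQ_one] at this
    rcases this with e | e | e | e <;> obtain ⟨s, rfl⟩ := M3.exists_zp e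
    exacts [⟨(0, s), rfl⟩, ⟨(1, s), rfl⟩, ⟨(2, s), rfl⟩, ⟨(3, s), rfl⟩]
  choose f hf using this
  exact (Nat.card_le_card_of_injective f fun a b e => Subtype.ext (by rw [← hf, ← hf, e])).trans (by simp)

theorem fix_cases (hg : g ∈ CZ) (o : orderOf g = 23) {u v : Q} (hu : g * qV u = qV u * g) (hv : g * qV v = qV v * g)
    (u0 : piQ u ≠ 0) (v0 : piQ v ≠ 0) (h : q2 (piQ u) = q2 (piQ v)) : piQ u = piQ v ∨ q2 (piQ u) = 0 ∧ q2 (piQ (u * v)) = 1 := by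
  obtain ⟨a, i, k, -⟩ := f23 (ord_rho hg o)
  rw [piQ_mul]
  rcases ((k _).1 ((fix_iff hg o).2 hu)).resolve_left u0 with e | e | e <;>
    rcases ((k _).1 ((fix_iff hg o).2 hv)).resolve_left v0 with e' | e' | e' <;> rw [e, e'] at h ⊢ <;>
    simp only [← smul_add, q2_smul', q2_om, q2_wv, q2_ow, add_comm (wv i) om, true_or, or_true, and_self] at h ⊢ <;> simp at h

theorem ord_z : orderOf zA = 2 := orderOf_eq_prime ((pow_two _).trans zA_mul_self) z_ne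

theorem nz_of {y : Q} (h1 : qV y ≠ 1) (h2 : qV y ≠ zA) : piQ y ≠ 0 := fun e =>
  (piQ_eq_zero e).elim (fun e => h1 (by rw [e, map_one])) fun e => h2 (by rw [e])

theorem eq_or {Z : Subgroup Aut} (hZ : Z = ⊥ ∨ Z = zpowers zA ∧ x * zA = zA * x) {t : Aut} (h : t ∈ Z) :
    (t = 1 ∨ t = zA) ∧ x * t * x⁻¹ = t := by
  rcases hZ with rfl | ⟨rfl, k⟩
  · simp [mem_bot.1 h]
  · rcases (mem_zpowers_iff_of_orderOf_two ord_z).1 h with rfl | rfl <;> simp [k]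

/-- `x` acts fixed point freely on `W / Z` -/
structure WD (W Z K : Subgroup Aut) (x g : Aut) : Prop where
  le : W ≤ qV.range
  x3 : x ^ 3 = 1
  hK : K ≤ CZ
  c : ∀ k ∈ K, k * x = x * k
  hg : g ∈ K
  o : orderOf g = 23
  hZ : Z = ⊥ ∨ Z = zpowers zA ∧ x * zA = zA * x
  sq : ∀ s ∈ W, s * s ∈ Z
  w1 : Z ≤ W
  w2 : ∀ s ∈ W, x * s * x⁻¹ ∈ W
  wk : ∀ k ∈ K, ∀ s ∈ W, k * s * k⁻¹ ∈ W
  w4 : ∀ s ∈ W, ∀ t ∈ Z, x * s * x⁻¹ = t * s → s ∈ Z

namespace WD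

variable {W Z : Subgroup Aut} (D : WD W Z K x g)
include D

theorem fin : Finite W := Finite.of_injective _ (inclusion_injective D.le)

theorem cx {H : Subgroup Aut} (h1 : Z ≤ H) (h2 : H ≤ W) (h3 : ∀ s ∈ H, x * s * x⁻¹ ∈ H) : Nat.card H ≡ Nat.card Z [MOD 3] := by
  have := D.fin
  have := Finite.of_injective _ (inclusion_injective h2)
  have := modEq_cen D.x3 h3
  rwa [show H ⊓ centralizer {x} = Z from le_antisymm (fun s k => D.w4 _ (h2 k.1) _ (one_mem _) (by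
    rw [← mem_centralizer_singleton_iff.1 k.2]; simp)) fun t k =>
    ⟨h1 k, mem_centralizer_singleton_iff.2 (mul_inv_eq_iff_eq_mul.1 (eq_or D.hZ k).2).symm⟩] at this

theorem gx : ∀ s ∈ W ⊓ centralizer {g}, x * s * x⁻¹ ∈ W ⊓ centralizer {g} := fun s h => ⟨D.w2 s h.1,
  mem_centralizer_singleton_iff.2 (Commute.mul_left (Commute.mul_left (D.c g D.hg).symm (mem_centralizer_singleton_iff.1 h.2))
    (Commute.inv_left (D.c g D.hg).symm))⟩

theorem gZ : Z ≤ W ⊓ centralizer {g} := fun t k => ⟨D.w1 k, mem_centralizer_singleton_iff.2 (by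
  rcases (eq_or D.hZ k).1 with rfl | rfl
  exacts [by simp, (comm_z (D.hK D.hg)).symm])⟩

theorem f0 {y w : Q} (h : qV y ∈ W) (a : zA ∈ Z) (l : qV w = x * qV y * x⁻¹) (k : piQ w = piQ y) : piQ y = 0 := by
  have : qV y ∈ Z := by
    rcases piQ_eq_iff.1 k with rfl | rfl
    exacts [D.w4 _ h _ (one_mem _) (by rw [← l, one_mul]), D.w4 _ h _ a (by rw [← l, map_mul])]
  rcases (eq_or D.hZ this).1 with e | e
  exacts [by rw [qV_injective (e.trans (map_one qV).symm), piQ_one], by rw [qV_injective e, piQ_zQ]]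

theorem f1 {y : Q} (h : qV y ∈ W ⊓ centralizer {g}) : q2 (piQ y) = 0 := (z2_cases _).resolve_right fun k => by
  have nz {y} (k : q2 (piQ y) = 1) : piQ y ≠ 0 := fun e => by simp [e, q2_zero] at k
  obtain ⟨w, l⟩ := D.le (D.w2 _ h.1)
  have k' : qV y * qV y = zA := sq_eq k
  have a : zA ∈ Z := k' ▸ D.sq _ h.1
  have b : q2 (piQ w) = 1 := (z2_cases _).resolve_left fun b => z_ne (by
    rw [← (eq_or D.hZ a).2, ← k', ← _root_.conj_mul, ← l, sq_eq b, zp_zero, map_one])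
  exact nz k (D.f0 h.1 a l ((fix_cases (D.hK D.hg) D.o (mem_centralizer_singleton_iff.1 (l ▸ D.gx _ h).2).symm
    (mem_centralizer_singleton_iff.1 h.2).symm (nz b) (nz k) (b.trans k.symm)).resolve_right fun e => zero_ne_one (e.1.symm.trans b)))

theorem f2 {u v : Q} (hu : qV u ∈ W ⊓ centralizer {g}) (hv : qV v ∈ W ⊓ centralizer {g}) (u0 : piQ u ≠ 0) (v0 : piQ v ≠ 0) :
    piQ u = piQ v := (fix_cases (D.hK D.hg) D.o (mem_centralizer_singleton_iff.1 hu.2).symm (mem_centralizer_singleton_iff.1 hv.2).symm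
  u0 v0 ((D.f1 hu).trans (D.f1 hv).symm)).resolve_right fun e => zero_ne_one ((D.f1 (map_mul qV u v ▸ mul_mem hu hv)).symm.trans e.2)

theorem c5 : Nat.card (W.comap qV) = Nat.card W := by
  rw [← card_map_of_injective qV_injective, map_comap_eq, inf_eq_right.2 D.le]

theorem c1 : Nat.card W ≡ Nat.card ↥(W ⊓ centralizer {g}) [MOD 23] :=
  have : Fact (Nat.Prime 23) := ⟨by norm_num⟩
  have := D.fin
  modEq_cen (D.o ▸ pow_orderOf_eq_one g) (D.wk g D.hg)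

end WD

theorem WD.cen {W : Subgroup Aut} (D : WD W ⊥ K x g) : W ⊓ centralizer {g} = W := by
  have := D.fin
  have c1 := D.c1
  have c2 := D.cx D.w1 le_rfl D.w2
  have c3 := D.cx D.gZ inf_le_left D.gx
  have c4 := (card_le_of_le (inf_le_inf_right (centralizer {g}) D.le)).trans (card_fixQ (D.hK D.hg) D.o)
  obtain ⟨j, -, j2⟩ := (Nat.dvd_prime_pow Nat.prime_two).1 (card_range_qV ▸ card_dvd_of_le D.le)
  obtain ⟨i, -, i2⟩ := (Nat.dvd_prime_pow Nat.prime_two).1 (j2 ▸ card_dvd_of_le (inf_le_left : W ⊓ centralizer {g} ≤ W))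
  have := Nat.finite_of_card_ne_zero (α := Q) (by rw [card_Q]; norm_num)
  have c6 := card_le_of_isMulCommutative isExtraspecial_Q (n := 12) card_Q (A := W.comap qV) ⟨⟨fun a b =>
    (Commute.of_orderOf_dvd_two (fun a => orderOf_dvd_of_pow_eq_one (Subtype.ext (qV_injective (by
      simpa [pow_two] using D.sq _ a.2)))) a b).eq⟩⟩
  rw [D.c5, j2, Nat.pow_le_pow_iff_right one_lt_two] at c6
  rw [i2, show 8 = 2 ^ 3 from rfl, Nat.pow_le_pow_iff_right one_lt_two] at c4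
  rw [j2, i2] at c1
  rw [j2, card_bot] at c2
  rw [i2, card_bot] at c3
  refine eq_of_le_of_card_ge inf_le_left ?_
  rw [i2, j2]
  exact (by decide : ∀ i ≤ 3, ∀ j ≤ 12 + 1, 2 ^ j % 23 = 2 ^ i % 23 → 2 ^ j % 3 = 1 % 3 → 2 ^ i % 3 = 1 % 3 → 2 ^ j ≤ 2 ^ i)
    i c4 j c6 c1 c2 c3

theorem WD.bot {W : Subgroup Aut} (D : WD W ⊥ K x g) (pW : p ∈ W) : p = 1 ∨ p = zA ∨ p = x * zA * x⁻¹ ∨ p = x⁻¹ * zA * x := by
  have f2 := @D.f2
  rw [D.cen] at f2
  by_contra! r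
  have p2 := D.w2 _ pW
  have p3 := D.w2 _ p2
  have xi : x * (x * (x * p * x⁻¹) * x⁻¹) * x⁻¹ = p := by
    rw [show x * (x * (x * p * x⁻¹) * x⁻¹) * x⁻¹ = x ^ 3 * p * (x ^ 3)⁻¹ by simp only [pow_three, _root_.mul_inv_rev, mul_assoc], D.x3]; simp
  obtain ⟨u, rfl⟩ := D.le pW
  obtain ⟨v, v1⟩ := D.le p2
  obtain ⟨w, w1⟩ := D.le p3
  have u0 := nz_of r.1 r.2.1
  have v0 : piQ v ≠ 0 := nz_of (by simpa [v1] using r.1) fun l => r.2.2.2 (by rw [← l, v1]; group)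
  have w0 : piQ w ≠ 0 := nz_of (by simpa [w1] using r.1) fun l => r.2.2.1 (by rw [← l, w1, xi])
  have n1 {s} (h : s ∈ W) (l : x * s * x⁻¹ = s) : s = 1 := D.w4 _ h _ (one_mem _) (by rw [l, one_mul])
  rcases piQ_eq_iff.1 (f2 (v1 ▸ p2) pW v0 u0) with rfl | rfl
  · exact r.1 (n1 pW v1.symm)
  rcases piQ_eq_iff.1 (f2 (w1 ▸ p3) pW w0 u0) with rfl | rfl
  · exact r.1 (n1 pW (by rw [← w1] at xi; exact xi))
  · exact r.1 (by simpa using n1 p2 (w1.symm.trans v1))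

theorem WD.card {W : Subgroup Aut} (D : WD W (zpowers zA) K x g) : Nat.card W = 2 ∨ Nat.card W = 2 ^ 23 := by
  have c6 : W ⊓ centralizer {g} = zpowers zA := le_antisymm (fun s h => by
    obtain ⟨y, rfl⟩ := D.le h.1
    obtain ⟨w, l⟩ := D.le (D.w2 _ h.1)
    by_contra r
    have t {y} (h : qV y ∉ zpowers zA) : piQ y ≠ 0 := nz_of (fun e => h (e ▸ one_mem _)) fun e => h (e ▸ mem_zpowers _)
    exact t r (D.f0 h.1 (mem_zpowers _) l (D.f2 (l ▸ D.gx _ h) h (t fun a => r (by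
      have := (eq_or D.hZ a).2
      rw [← this, mul_left_inj, mul_right_inj] at l
      exact l ▸ a)) (t r)))) D.gZ
  have c1 := D.c1
  have c2 := D.cx D.w1 le_rfl D.w2
  obtain ⟨j, j1, j2⟩ := (Nat.dvd_prime_pow Nat.prime_two).1 (card_range_qV ▸ card_dvd_of_le D.le)
  rw [c6] at c1
  rw [Nat.card_zpowers, ord_z, j2] at c1 c2
  rw [j2]
  exact (by decide : ∀ j ≤ 2 * 12 + 1, 2 ^ j % 23 = 2 % 23 → 2 ^ j % 3 = 2 % 3 → 2 ^ j = 2 ∨ 2 ^ j = 2 ^ 23) j j1 c1 c2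

theorem WD.big {W : Subgroup Aut} (D : WD W (zpowers zA) K x g) (h27 : 27 ∣ Nat.card K) : Nat.card W ≠ 2 ^ 23 := fun j2 => by
  have : Fact (Nat.Prime 23) := ⟨by norm_num⟩
  have := Nat.finite_of_card_ne_zero (α := Q) (by rw [card_Q]; norm_num)
  have c7 := card_centralizer_mul isExtraspecial_Q (W.comap qV)
  rw [sup_eq_left.2 fun y h => (mem_center_Q.1 h).elim (fun e => e ▸ one_mem _) fun e => e ▸ D.w1 (mem_zpowers _), D.c5, card_Q,
    j2] at c7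
  let E := (centralizer (W.comap qV : Set Q)).map qV
  have d1 : Nat.card E = 8 := by rw [card_map_of_injective qV_injective]; omega
  have := Nat.finite_of_card_ne_zero (α := E) (by omega)
  have d2 {k} (h : k ∈ K) : ∀ s ∈ E, k * s * k⁻¹ ∈ E := by
    rintro _ ⟨y, a, rfl⟩
    obtain ⟨w, l⟩ := exists_conj (D.hK h) y
    refine ⟨w, fun u hu => qV_injective ?_, l.symm⟩
    obtain ⟨v, l'⟩ := exists_conj (D.hK (inv_mem h)) u
    have := congrArg qV (a v (show qV v ∈ W from l' ▸ D.wk _ (inv_mem h) _ hu))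
    rw [map_mul, map_mul, ← l'] at this
    rw [map_mul, map_mul, ← l, ← mul_right_inj k⁻¹, ← mul_left_inj k]
    simpa [mul_assoc] using this
  have d3 : E ⊓ centralizer {g} = E := eq_of_le_of_card_ge inf_le_left (by
    have a := modEq_cen (D.o ▸ pow_orderOf_eq_one g) (d2 D.hg)
    have b := card_le_of_le (inf_le_left : E ⊓ centralizer {g} ≤ E)
    rw [Nat.ModEq] at a
    omega)
  have d4 : E = qV.range ⊓ centralizer {g} := eq_of_le_of_card_ge (le_inf (map_le_range _ _) (d3.ge.trans inf_le_right))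
    (d1 ▸ card_fixQ (D.hK D.hg) D.o)
  have := Finite.of_injective _ (inclusion_injective D.hK)
  refine no27 (ord_rho (D.hK D.hg) D.o) (R := (rhoC.comp (inclusion D.hK)).range) ?_ (dvd_card_range
    (pgroup_ker.comap_of_injective _ (inclusion_injective D.hK)) (by decide) h27)
  rintro _ ⟨k, rfl⟩ v hv
  obtain ⟨y, rfl⟩ := piQ_surjective v
  obtain ⟨w, l⟩ := exists_conj (D.hK k.2) y
  rw [MonoidHom.comp_apply, ← piQ_conj (inclusion D.hK k) l, fix_iff _ D.o]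
  exact (mem_centralizer_singleton_iff.1 (d4.le (l ▸ d2 k.2 _ (d4.ge ⟨⟨_, rfl⟩,
    mem_centralizer_singleton_iff.2 ((fix_iff _ D.o).1 hv).symm⟩))).2).symm

theorem b2_aux (hS : S ≤ qV.range) (hx : ∀ s ∈ S, x * s * x⁻¹ ∈ S) (x3 : x ^ 3 = 1) (hK : K ≤ CZ) (c : ∀ k ∈ K, k * x = x * k)
    (n : ∀ k ∈ K, ∀ s ∈ S, k * s * k⁻¹ ∈ S) (hg : g ∈ K) (o : orderOf g = 23) {Z : Subgroup Aut} (le : Z ≤ S)
    (hZ : Z = ⊥ ∨ Z = zpowers zA ∧ x * zA = zA * x) (sq : ∀ s ∈ S, s * s ∈ Z) :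
    ∃ W, WD W Z K x g ∧ ∀ p ∈ S, x * (x * p * x⁻¹) * x⁻¹ * (x * p * x⁻¹) * p = 1 → p ∈ W := by
  have z2 {t k} (h : t ∈ Z) (hk : k ∈ CZ) : k * t = t * k := by
    rcases (eq_or hZ h).1 with rfl | rfl
    exacts [by simp, comm_z hk]
  have SC : S ≤ CZ := fun s h => let ⟨y, e⟩ := hS h; e ▸ qV_mem y
  obtain ⟨W, hW⟩ := exists_W hx (fun t h s k => z2 h (SC k)) sq
  have WS : W ≤ S := fun s h => ((hW s).1 h).1
  have w3 {k} (h1 : k * x = x * k) (h2 : ∀ s ∈ S, k * s * k⁻¹ ∈ S) (h3 : ∀ t ∈ Z, k * t * k⁻¹ = t) : ∀ s ∈ W, k * s * k⁻¹ ∈ W :=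
    fun s h => (hW _).2 ⟨h2 s (WS h), by
      have l (s) : x * (k * s * k⁻¹) * x⁻¹ = k * (x * s * x⁻¹) * k⁻¹ := by
        rw [← mul_assoc, ← mul_assoc, ← h1, mul_assoc _ k⁻¹, ← _root_.mul_inv_rev, ← h1]; group
      rw [l, l, _root_.conj_mul, _root_.conj_mul, h3 _ ((hW s).1 h).2]; exact ((hW s).1 h).2⟩
  refine ⟨W, ⟨WS.trans hS, x3, hK, c, hg, o, hZ, fun s h => sq s (WS h), fun t h => (hW t).2 ⟨le h, ?_⟩,
    w3 rfl hx fun _ h => (eq_or hZ h).2, fun k h => w3 (c k h) (n k h) fun t l => mul_inv_eq_iff_eq_mul.2 (z2 l (hK h)),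
    fun s h t l e => ?_⟩, fun p h e => (hW p).2 ⟨h, e ▸ one_mem _⟩⟩
  · rw [(eq_or hZ h).2, (eq_or hZ h).2]; exact mul_mem (mul_mem h h) h
  · have k := ((hW s).1 h).2
    rwa [e, ← _root_.conj_mul, (eq_or hZ l).2, e, mul_assoc, mul_assoc, mul_assoc, mul_mem_cancel_left l, mul_assoc,
      mul_mem_cancel_left l, ← mul_assoc, z2 l (SC (WS h)), mul_assoc, mul_mem_cancel_left l,
      mul_mem_cancel_right (sq s (WS h))] at k

theorem b2 (hS : S ≤ qV.range) (hx : ∀ s ∈ S, x * s * x⁻¹ ∈ S) (x3 : x ^ 3 = 1) (hK : K ≤ CZ) (c : ∀ k ∈ K, k * x = x * k)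
    (n : ∀ k ∈ K, ∀ s ∈ S, k * s * k⁻¹ ∈ S) (h27 : 27 ∣ Nat.card K) (hg : g ∈ K) (o : orderOf g = 23) (hp : p ∈ S)
    (e : x * (x * p * x⁻¹) * x⁻¹ * (x * p * x⁻¹) * p = 1) : p = 1 ∨ p = zA ∨ p = x * zA * x⁻¹ ∨ p = x⁻¹ * zA * x := by
  have t {s} (h : s ∈ S) : s * s = 1 ∨ s * s = zA := by
    obtain ⟨y, rfl⟩ := hS h
    rw [sq_eq rfl]; exact zp_cases _
  by_cases k : ∀ s ∈ S, s * s = 1
  · obtain ⟨W, D, l⟩ := b2_aux hS hx x3 hK c n hg o bot_le (.inl rfl) k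
    exact D.bot (l p hp e)
  push Not at k
  obtain ⟨s, s1, s2⟩ := k
  have s3 := (t s1).resolve_left s2
  obtain ⟨W, D, l⟩ := b2_aux hS hx x3 hK c n hg o (zpowers_le.2 (s3 ▸ mul_mem s1 s1)) (.inr ⟨rfl, by
    have := t (hx s s1)
    rw [_root_.conj_mul, s3] at this
    exact mul_inv_eq_iff_eq_mul.1 (this.resolve_left (by simpa using z_ne))⟩) fun s h =>
    (t h).elim (fun e => e ▸ one_mem _) fun e => e ▸ mem_zpowers _
  have := D.fin
  rcases (eq_or D.hZ ((eq_of_le_of_card_ge D.w1 (by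
    rw [D.card.resolve_right (D.big h27), Nat.card_zpowers, ord_z])).ge (l p hp e))).1 with l | l
  exacts [.inl l, .inr (.inl l)]

end Cfsg.Lib.Griess.MA
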