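import Cfsg.Agent.Lib.MA.Gol

/-! # Identification of the subgroup `N` -/

set_option autoImplicit false

namespace Cfsg.Lib.Griess.MA

open Matrix Subgroup MulAction Cfsg.Lib.Leech Cfsg.Lib.Mon Cfsg.Spor Function

variable [AQ]

/-- `M / P ≅ M₂₄`, and `x` of order three centralizes `M / P` -/
structure ND (M P : Subgroup Aut) (x : Aut) : Prop where
  PM : P ≤ M
  MC : M ≤ CZ
  xP : ∀ p ∈ P, x * p * x⁻¹ ∈ P
  cm : ∀ n ∈ M, x * n * x⁻¹ * n⁻¹ ∈ P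
  x3 : x ^ 3 = 1
  hP : IsPGroup 2 P
  μ : ∃ μ : M →* M24, Surjective μ ∧ μ.ker = P.subgroupOf M

/-- the image in `Co₁` -/
abbrev im (P : Subgroup Aut) : Subgroup Co1 := (P.subgroupOf CZ).map rhoC

theorem mem_im {P : Subgroup Aut} {t : Co1} : t ∈ im P ↔ ∃ p ∈ P, ∃ h : p ∈ CZ, rhoC ⟨p, h⟩ = t :=
  ⟨fun ⟨p, a, b⟩ => ⟨p, a, p.2, b⟩, fun ⟨p, a, h, b⟩ => ⟨⟨p, h⟩, a, b⟩⟩

theorem conj_range {c s : Aut} (hc : c ∈ CZ) (h : s ∈ qV.range) : c * s * c⁻¹ ∈ qV.range := by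
  obtain ⟨y, rfl⟩ := h
  exact (exists_conj hc y).imp fun _ => Eq.symm

theorem range_le : qV.range ≤ CZ := by rintro _ ⟨y, rfl⟩; exact qV_mem y

theorem im_conj {S : Subgroup Aut} {g : Aut} (hg : g ∈ CZ) (h : ∀ s ∈ S, g * s * g⁻¹ ∈ S) :
    ∀ t ∈ im S, rhoC ⟨g, hg⟩ * t * (rhoC ⟨g, hg⟩)⁻¹ ∈ im S := by
  rintro _ ⟨s, a, rfl⟩
  exact ⟨⟨g, hg⟩ * s * ⟨g, hg⟩⁻¹, h _ a, by simp⟩

theorem im_eq_bot {S : Subgroup Aut} (h : S ≤ CZ) : im S = ⊥ ↔ S ≤ qV.range := by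
  rw [Subgroup.map_eq_bot_iff, ker_rhoC]
  exact ⟨fun k s a => k (show (⟨s, h a⟩ : CZ) ∈ _ from a), fun k s a => k a⟩

namespace ND

variable {M P : Subgroup Aut} {x : Aut} (D : ND M P x)
include D

theorem fin : Finite M := Finite.of_injective _ (inclusion_injective D.MC)

theorem nP : ∀ n ∈ M, ∀ p ∈ P, n * p * n⁻¹ ∈ P := fun n a p b =>
  let ⟨μ, _, e⟩ := D.μ
  (e ▸ μ.normal_ker).conj_mem ⟨p, D.PM b⟩ b ⟨n, a⟩

theorem xM : ∀ n ∈ M, x * n * x⁻¹ ∈ M := fun n h => (mul_mem_cancel_right (inv_mem h)).1 (D.PM (D.cm n h))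

theorem inv_eq : x⁻¹ = x * x := inv_eq_of_mul_eq_one_right (by rw [← D.x3, pow_three])

theorem conj_inv {S : Subgroup Aut} (h : ∀ s ∈ S, x * s * x⁻¹ ∈ S) : ∀ s ∈ S, x⁻¹ * s * x⁻¹⁻¹ ∈ S := fun s a => by
  simpa only [D.inv_eq, _root_.mul_inv_rev, mul_assoc] using h _ (h s a)

theorem inv : ND M P x⁻¹ := ⟨D.PM, D.MC, D.conj_inv D.xP, fun n h => by
  simpa [mul_assoc] using inv_mem (D.cm _ (D.conj_inv D.xM n h)), by rw [inv_pow, D.x3, inv_one], D.hP, D.μ⟩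

theorem fix {n : Aut} (h : n ∈ M) : ∃ k ∈ M, x * k = k * x ∧ n⁻¹ * k ∈ P := by
  have := D.fin
  have := Finite.of_injective _ (inclusion_injective D.PM)
  obtain ⟨k, a, b⟩ := exists_fix (T := {k | n⁻¹ * k ∈ P}) D.x3 (fun k a => by
    have := mul_mem (D.nP _ (inv_mem h) _ (D.cm n h)) (D.xP _ a)
    simpa [mul_assoc] using this) (by
    rw [show {k | n⁻¹ * k ∈ P} = (n * ·) '' P from Set.ext fun k => ⟨fun a => ⟨_, a, by simp⟩, by rintro ⟨p, a, rfl⟩; simpa⟩,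
      Set.ncard_image_of_injective _ (mul_right_injective n), ← Nat.card_coe_set_eq, SetLike.coe_sort_coe]
    exact (Nat.prime_three.coprime_iff_not_dvd).1 (cop_two D.hP (by decide)).symm)
  exact ⟨k, (mul_mem_cancel_left (inv_mem h)).1 (D.PM a), b, a⟩

theorem cardK : 244823040 ∣ Nat.card ↥(M ⊓ centralizer {x}) := by
  obtain ⟨μ, a, b⟩ := D.μ
  refine Mathieu.card_M24 ▸ card_dvd_of_surjective (μ.comp (inclusion inf_le_left)) fun σ => ?_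
  obtain ⟨n, rfl⟩ := a σ
  obtain ⟨k, k1, k2, k3⟩ := D.fix n.2
  refine ⟨⟨k, k1, mem_centralizer_singleton_iff.2 k2.symm⟩, (inv_mul_eq_one.1 ?_).symm⟩
  exact (by rw [map_mul, map_inv]; rfl : _ = μ (n⁻¹ * ⟨k, k1⟩)).trans (b.ge k3)

theorem exists_g : ∃ g ∈ M ⊓ centralizer {x}, orderOf g = 23 := by
  have : Fact (Nat.Prime 23) := ⟨by norm_num⟩
  have := D.fin
  have := Finite.of_injective _ (inclusion_injective (inf_le_left : M ⊓ centralizer {x} ≤ M))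
  obtain ⟨g, h⟩ := exists_prime_orderOf_dvd_card' 23 (.trans (by norm_num) D.cardK)
  exact ⟨g, g.2, (orderOf_coe g).trans h⟩

theorem ker_le {μ : M →* M24} (h : Surjective μ) : (rhoC.comp (inclusion D.MC)).ker ≤ μ.ker := by
  have := Cfsg.Agent.S0365.result
  exact (Subgroup.map_eq_bot_iff _).1 (((MonoidHom.normal_ker _).map μ h).eq_bot_or_eq_top.resolve_right fun e =>
    not_isPGroup_of_card (K := (rhoC.comp (inclusion D.MC)).ker.map μ) (by rw [e, card_top, Mathieu.card_M24]; norm_num)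
      ((pgroup_ker.comap_of_injective _ (inclusion_injective D.MC)).map μ))

theorem Q1 : M ⊓ qV.range ≤ P := fun s h =>
  let ⟨_, a, b⟩ := D.μ
  b.le (D.ker_le a (show (⟨s, h.1⟩ : M) ∈ _ from rhoC_eq_one.2 h.2))

theorem map_eq {μ : M →* M24} (h : μ.ker = P.subgroupOf M) : μ.ker.map (rhoC.comp (inclusion D.MC)) = im P := by
  ext t
  rw [h, mem_im]
  exact ⟨fun ⟨p, a, b⟩ => ⟨p, a, _, b⟩, fun ⟨p, a, _, b⟩ => ⟨⟨p, D.PM a⟩, a, b⟩⟩

theorem exists_signs (h : im P ≠ ⊥) : ∃ a : Co1, ∀ t, t ∈ im P ↔ a * t * a⁻¹ ∈ signs := by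
  obtain ⟨μ, a, b⟩ := D.μ
  have := D.fin
  rw [← D.map_eq b] at h ⊢
  exact b1 _ μ a (b ▸ D.hP.comap_subtype) (pgroup_ker.comap_of_injective _ (inclusion_injective D.MC)) h

theorem b2' {r : Aut} (h1 : ∀ s ∈ M ⊓ qV.range, x * s * x⁻¹ ∈ M ⊓ qV.range) (h2 : x * r * x⁻¹ * r⁻¹ ∈ M ⊓ qV.range) :
    x * r * x⁻¹ * r⁻¹ = 1 ∨ x * r * x⁻¹ * r⁻¹ = zA ∨ x * r * x⁻¹ * r⁻¹ = x * zA * x⁻¹ ∨ x * r * x⁻¹ * r⁻¹ = x⁻¹ * zA * x := by
  obtain ⟨g, g1, g2⟩ := D.exists_g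
  refine b2 inf_le_right h1 D.x3 (inf_le_left.trans D.MC) (fun k h => mem_centralizer_singleton_iff.1 h.2)
    (fun k a s b => ⟨M.mul_mem (M.mul_mem a.1 b.1) (M.inv_mem a.1), conj_range (D.MC a.1) b.2⟩) (.trans (by norm_num) D.cardK) g1 g2 h2 ?_
  calc _ = x ^ 3 * r * (x ^ 3)⁻¹ * r⁻¹ := by simp only [pow_three]; group
    _ = 1 := by simp [D.x3]

theorem sub_im {S : Subgroup Aut} (h1 : S ≤ P) (h2 : ∀ k ∈ M ⊓ centralizer {x}, ∀ s ∈ S, k * s * k⁻¹ ∈ S) (h : ¬ S ≤ qV.range) :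
    im S = im P := by
  obtain ⟨g, g1, g2⟩ := D.exists_g
  exact sub_eq (D.hP.comap_subtype.map _) (ord_rho (D.MC g1.1) g2) (im_conj _ (D.nP g g1.1)) (map_mono (comap_mono h1))
    (im_conj _ (h2 g g1)) (mt (im_eq_bot (h1.trans (D.PM.trans D.MC))).1 h)

theorem mem_of_nor (hs : im P = signs) (h : ∀ s ∈ M ⊓ qV.range, x * s * x⁻¹ ∈ M ⊓ qV.range) {r : Aut} (hr : r ∈ P) :
    x * r * x⁻¹ * r⁻¹ ∈ M ⊓ qV.range := by
  have PC := D.PM.trans D.MC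
  have := Finite.of_injective _ (inclusion_injective PC)
  let S : Subgroup Aut := ⟨⟨⟨{p | p ∈ P ∧ x * p * x⁻¹ * p⁻¹ ∈ qV.range}, fun {a b} u v => ⟨mul_mem u.1 v.1, by
    simpa [mul_assoc] using mul_mem u.2 (conj_range (PC u.1) v.2)⟩⟩, one_mem _, by simp⟩, fun {a} u => ⟨inv_mem u.1, by
    simpa [mul_assoc] using conj_range (PC (inv_mem u.1)) (inv_mem u.2)⟩⟩
  obtain ⟨p, ⟨p1, p2⟩, p3⟩ := exists_fix (T := (P : Set Aut) \ (qV.range ⊓ P : Subgroup Aut)) D.x3 (fun p a => ⟨D.xP p a.1, fun b => a.2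
    ⟨by simpa [mul_assoc] using (D.conj_inv h _ ⟨D.PM b.2, b.1⟩).2, a.1⟩⟩) (by
    have a := Core.card_inf_mul_relIndex qV.range P
    have b : qV.range.relIndex P = 2 ^ 11 := by
      rw [← card_signs, ← hs, ← relIndex_subgroupOf PC, ← ker_rhoC, relIndex_ker]
    obtain ⟨j, c⟩ := (D.hP.to_le (inf_le_right : qV.range ⊓ P ≤ P)).exists_card_eq
    rw [Set.ncard_sdiff (fun _ k => k.2) ((Set.toFinite (P : Set Aut)).subset fun _ k => k.2), ← Nat.card_coe_set_eq, ← Nat.card_coe_set_eq, SetLike.coe_sort_coe, SetLike.coe_sort_coe,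
      ← a, b, c, ← Nat.mul_sub_one]
    exact fun k => absurd (Nat.prime_three.dvd_of_dvd_pow ((Nat.Coprime.dvd_mul_right (by norm_num)).1 k)) (by decide))
  obtain ⟨s, s1, s2, s3⟩ := mem_im.1 ((D.sub_im (S := S) (fun _ k => k.1) (fun k a s b => ⟨D.nP k a.1 s b.1, by
    have c : Commute k x := mem_centralizer_singleton_iff.1 a.2
    have := conj_range (D.MC a.1) b.2
    rwa [← _root_.conj_mul, ← _root_.conj_mul, ← _root_.conj_mul, ← _root_.conj_inv, ← _root_.conj_inv, c.eq,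
      mul_inv_cancel_right] at this⟩) fun k => p2 ⟨k ⟨p1, by simp [p3]⟩, p1⟩).ge (mem_im.2 ⟨r, hr, PC hr, rfl⟩))
  have a : s⁻¹ * r ∈ qV.range := (rhoC_eq_one (g := ⟨s, s2⟩⁻¹ * ⟨r, PC hr⟩)).1 (by simp [s3])
  have b : s⁻¹ * r ∈ P := mul_mem (inv_mem s1.1) hr
  have : r ∈ S := (mul_mem_cancel_left (inv_mem s1)).1 ⟨b, mul_mem (h _ ⟨D.PM b, a⟩).2 (inv_mem a)⟩
  exact ⟨D.PM (mul_mem (D.xP r hr) (inv_mem hr)), this.2⟩

variable (hs : im P = signs)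
include hs

theorem ind_P {p : Aut} (h : p ∈ P) : ∃ c, Ind p 1 c :=
  let ⟨c, e⟩ := mem_signs'.1 (hs.le (mem_im.2 ⟨p, h, D.MC (D.PM h), rfl⟩))
  ⟨c, _, e⟩

theorem range_eq' : (rhoC.comp (inclusion D.MC)).range = stabilizer Co1 om :=
  let ⟨_, a, b⟩ := D.μ
  have := D.fin
  range_eq a (D.ker_le a) ((D.map_eq b).trans hs)

theorem ind_M {n : Aut} (h : n ∈ M) : ∃ σ c, Ind n σ c := exists_ind (g := ⟨n, D.MC h⟩) ((D.range_eq' hs).le ⟨⟨n, h⟩, rfl⟩)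

theorem exists_M (σ : M24) (c : Cd) : ∃ n ∈ M, Ind n σ c :=
  let ⟨n, e⟩ := (D.range_eq' hs).ge (show (mo σ c : Co1) ∈ _ from mo_om σ c)
  ⟨n, n.2, _, e⟩

theorem exists_K (σ : M24) : ∃ k ∈ M, x * k = k * x ∧ ∃ c, Ind k σ c := by
  obtain ⟨n, a, b⟩ := D.exists_M hs σ 0
  obtain ⟨k, k1, k2, k3⟩ := D.fix a
  obtain ⟨c, e⟩ := D.ind_P hs k3
  exact ⟨k, k1, k2, _, by simpa using b.mul e⟩

omit D hs in
theorem mem_Y {s : Aut} : s ∈ (M ⊓ qV.range).map (MulAut.conj x).toMonoidHom ↔ ∃ q, qV q ∈ M ∧ x * qV q * x⁻¹ = s :=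
  ⟨fun ⟨_, ⟨a, q, e⟩, b⟩ => ⟨q, e ▸ a, e ▸ b⟩, fun ⟨q, a, b⟩ => ⟨_, ⟨a, q, rfl⟩, b⟩⟩

omit hs in
theorem nor_Y {n s : Aut} (h : n ∈ M) (k : s ∈ (M ⊓ qV.range).map (MulAut.conj x).toMonoidHom) :
    n * s * n⁻¹ ∈ (M ⊓ qV.range).map (MulAut.conj x).toMonoidHom := by
  obtain ⟨t, a, rfl⟩ := k
  have := D.conj_inv D.xM n h
  exact ⟨_, ⟨M.mul_mem (M.mul_mem this a.1) (M.inv_mem this), conj_range (D.MC this) a.2⟩, by simp [mul_assoc]⟩

theorem img (nn : ¬ ∀ q, qV q ∈ M → x * qV q * x⁻¹ ∈ qV.range) (e : Cd) : ∃ q, qV q ∈ M ∧ Ind (x * qV q * x⁻¹) 1 e := by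
  obtain ⟨s, a, b, c⟩ := mem_im.1 ((D.sub_im (S := (M ⊓ qV.range).map (MulAut.conj x).toMonoidHom) (by
    rintro _ ⟨s, a, rfl⟩; exact D.xP _ (D.Q1 a)) (fun k a s => D.nor_Y a.1) fun k => nn fun q a => k (mem_Y.2 ⟨q, a, rfl⟩)).ge
    (hs.ge (mem_signs'.2 ⟨e, rfl⟩)))
  obtain ⟨q, a', rfl⟩ := mem_Y.1 a
  exact ⟨q, a', b, c⟩

omit hs in
theorem psi_V {q : Q} (h : qV q ∈ M) (e : piQ q = 0 ∨ piQ q = om) (hs : im P = signs) : x * qV q * x⁻¹ ∈ qV.range := by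
  obtain ⟨g, g1, g2⟩ := D.exists_g
  have a := D.xP _ (D.Q1 ⟨h, q, rfl⟩)
  obtain ⟨j, b⟩ := D.hP ⟨_, a⟩
  have c : Commute g (qV q) := (fix_iff (D.MC g1.1) g2).1 (by
    rcases e with e | e <;> rw [e]
    exacts [smul_zero _, (D.range_eq' hs).le ⟨⟨g, g1.1⟩, rfl⟩])
  have d : Commute g x := mem_centralizer_singleton_iff.1 g1.2
  refine (rhoC_eq_one (g := ⟨_, D.MC (D.PM a)⟩)).1 (no_inv (ord_rho (D.MC g1.1) g2) ?_ (n := j) ?_)
  · rw [← map_mul, ← map_mul]; exact congrArg rhoC (Subtype.ext ((d.mul_right c).mul_right d.inv_right))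
  · rw [← map_pow, ← map_one rhoC]; exact congrArg rhoC (Subtype.ext (congrArg Subtype.val b :))

theorem not_U (nn : ¬ ∀ q, qV q ∈ M → x * qV q * x⁻¹ ∈ qV.range) :
    ¬ ∀ q, qV q ∈ M → pr Om q.c = 0 ∧ ∃ n : ZMod 2, q.d = n • Om := fun h => nn fun q hq => by
  have V {p q : Q} (hp : qV p ∈ M) (hq : qV q ∈ M) (e : p.c = q.c) : x * qV (p * q⁻¹) * x⁻¹ ∈ qV.range := by
    have m : qV (p * q⁻¹) ∈ M := by rw [map_mul, map_inv]; exact mul_mem hp (inv_mem hq)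
    obtain ⟨-, n, k⟩ := h _ m
    refine D.psi_V m ?_ hs
    rcases z2_cases n with rfl | rfl
    exacts [.inl ((piQ_congr (y := 1) (by simpa using k) (by simp [e])).trans piQ_one),
      .inr (piQ_congr (by simpa using k) (by simp [e]))]
  have cj {k σ c p δ} (hk : k ∈ M) (i : Ind k σ c) (hp : qV p ∈ M) (e : p.c = cs δ) :
      ∃ p', qV p' ∈ M ∧ p'.c = cs (sW σ δ) ∧ k * qV p * k⁻¹ = qV p' := by
    obtain ⟨a, n, b⟩ := h p hp
    obtain ⟨t, m, l⟩ := i.dp p.s n δ (by simpa [e, dotProduct_comm] using a)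
    rw [show qe p.s (n • Om) δ = p from Q.ext rfl b.symm e.symm] at l
    exact ⟨_, l ▸ mul_mem (mul_mem hk hp) (inv_mem hk), rfl, l⟩
  have F (T : Aut → Prop) (t1 : T 1) (t2 : ∀ a b, T a → T b → T (a * b))
      (t3 : ∀ k ∈ M, x * k = k * x → ∀ a, T a → T (k * a * k⁻¹)) :=
    fam (T := fun δ => ∃ p, qV p ∈ M ∧ p.c = cs δ ∧ T (qV p)) ⟨1, by simp, by simp, by simpa⟩
      (fun _ _ ⟨p, a, b, c⟩ ⟨q, d, e, f⟩ => ⟨p * q, by rw [map_mul]; exact mul_mem a d, by rw [mul_c, b, e, cs_add],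
        map_mul qV p q ▸ t2 _ _ c f⟩) fun σ _ ⟨p, a, b, c⟩ =>
      let ⟨k, k1, k2, _, k3⟩ := D.exists_K hs σ
      let ⟨p', d, e, f⟩ := cj k1 k3 a b
      ⟨p', d, e, f ▸ t3 k k1 k2 _ c⟩
  obtain ⟨δ, e⟩ := cs_surj q.c
  by_cases k : δ ∈ golayCode
  · simpa only [inv_one, mul_one] using V (q := 1) hq (by simp) (by rw [← e, cs_eq_zero.2 k]; rfl)
  obtain ⟨p, p1, p2, -⟩ := (F (fun _ => True) trivial (fun _ _ _ _ => trivial) fun _ _ _ _ _ => trivial).of_not_cw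
    (s := support₂ δ) (mt Golay.support₂_mem_supports.1 k) ⟨q, hq, by rw [Golay.word_support₂, e], trivial⟩
    (support₂ (e1 none + e1 (some 0))) (by decide +kernel)
  rw [Golay.word_support₂] at p2
  obtain ⟨c, p3⟩ := D.ind_P hs (D.xP _ (D.Q1 ⟨p1, p, rfl⟩))
  have p4 : Ind (x * qV p * x⁻¹) 1 0 := by
    rcases fix_pair (i := none) (j := some 0) (c := c) fun σ a b => by
      obtain ⟨k, k1, k2, d, k3⟩ := D.exists_K hs σ
      obtain ⟨p', p5, p6, p7⟩ := cj k1 k3 p1 p2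
      rw [sW_add, sW_e1, sW_e1, a, b, ← p2] at p6
      obtain ⟨v, p8⟩ := V p5 p1 p6
      have a := k3.mul p3
      have b := ((ind_qV v).mul p3).mul k3
      rw [show qV v * (x * qV p * x⁻¹) * k = k * (x * qV p * x⁻¹) by
        rw [p8, map_mul, ← p7, map_inv, ← mul_assoc k, ← mul_assoc k, ← k2, mul_assoc _ (_ * x⁻¹) k, mul_assoc _ x⁻¹ k,
          (Commute.inv_left k2).eq]; group] at b
      simp only [mul_one, one_mul, sC_one, zero_add] at a b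
      exact (mo_inj (b.2.symm.trans a.2)).imp (fun l => add_left_cancel (l.trans (add_comm _ _))) fun l =>
        add_left_cancel (l.trans (by abel)) with rfl | rfl
    exacts [p3, by simpa using p3.add_Om]
  obtain ⟨p', a, b, c⟩ := (F (fun a => x * a * x⁻¹ ∈ qV.range) (by simp) (fun a b u v => by simpa [mul_assoc] using mul_mem u v)
    fun k a b s c => by
      have := conj_range (D.MC a) c
      rwa [← mul_assoc, ← mul_assoc, ← b, mul_assoc _ x⁻¹, (Commute.inv_inv b).eq, ← mul_assoc, mul_assoc x, mul_assoc x] at this).of_pair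
    (s := support₂ (e1 none + e1 (some 0))) (by decide +kernel) ⟨p, p1, by rwa [Golay.word_support₂], ind_one_iff.1 p4⟩
    (support₂ δ) (even_iff_two_dvd.2 (even_wt_iff.2 (by simpa [← e, dotProduct_comm] using (h q hq).1)))
  rw [Golay.word_support₂] at b
  simpa [mul_assoc] using mul_mem (V hq a (e.symm.trans b.symm)) c

end ND

end Cfsg.Lib.Griess.MA
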