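import Cfsg.Agent.Lib.MA.B3

/-! # Identification of the subgroup `N`, continued -/

set_option autoImplicit false

namespace Cfsg.Lib.Griess.MA

open Matrix Subgroup MulAction Cfsg.Lib.Leech Cfsg.Lib.Mon Cfsg.Spor Function

theorem dc_of {x y : Q} (h : piQ x = piQ y) : x.d = y.d ∧ x.c = y.c := by rcases piQ_eq_iff.1 h with rfl | rfl <;> simp

theorem ne_of_smul {d : Cd} : (¬ ∃ n : ZMod 2, d = n • Om) ↔ d ≠ 0 ∧ d ≠ Om :=
  ⟨fun h => ⟨fun e => h ⟨0, by simp [e]⟩, fun e => h ⟨1, by simp [e]⟩⟩, fun h ⟨n, e⟩ => by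
    rcases z2_cases n with rfl | rfl <;> simp_all⟩

variable [AQ]

theorem mem_NV_iff {q : Q} : qV q ∈ NV ↔ pr Om q.c = 0 := by
  obtain ⟨s, d, δ, rfl⟩ := qe_surj q
  simp [qV_mem_NV, dotProduct_comm]

namespace ND

variable {M P : Subgroup Aut} {x : Aut} (D : ND M P x) (hs : im P = signs)
include D hs

omit D in
theorem exists_P (e : Cd) : ∃ a ∈ P, Ind a 1 e :=
  let ⟨a, b, c⟩ := mem_im.1 (hs.ge (mem_signs'.2 ⟨e, rfl⟩))
  ⟨a, b, c⟩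

omit D hs in
theorem comm_mem {a : Aut} {q w : Q} {e : Cd} (ha : a ∈ M) (hq : qV q ∈ M) (h : Ind a 1 e) (k : mo 1 e • piQ q = piQ (w * q)) :
    ∃ s, qV (zp s * w) ∈ M ∧ a * qV q * a⁻¹ * (qV q)⁻¹ = qV (zp s * w) := by
  obtain ⟨s, l⟩ := h.conj' k
  have : a * qV q * a⁻¹ * (qV q)⁻¹ = qV (zp s * w) := by rw [l, ← mul_assoc, map_mul, mul_inv_cancel_right]
  exact ⟨s, this ▸ mul_mem (mul_mem (mul_mem ha hq) (inv_mem ha)) (inv_mem hq), this⟩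

variable (nn : ¬ ∀ q, qV q ∈ M → x * qV q * x⁻¹ ∈ qV.range)
include nn

theorem exists_even : ∃ q, qV q ∈ M ∧ pr Om q.c = 0 ∧ ¬ ∃ n : ZMod 2, q.d = n • Om := by
  obtain ⟨q, h⟩ := not_forall.1 (D.not_U hs nn)
  obtain ⟨h1, h2⟩ := Classical.not_imp.1 h
  rcases z2_cases (pr Om q.c) with k | k
  · exact ⟨q, h1, k, fun l => h2 ⟨k, l⟩⟩
  obtain ⟨O, hO, -⟩ := MT.exists_oct
  obtain ⟨a, a1, a2⟩ := exists_P hs O
  obtain ⟨w, w1, w2, n, w3⟩ := mo_od k O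
  obtain ⟨s, l, -⟩ := comm_mem (D.PM a1) h1 a2 w1
  refine ⟨_, l, by simpa using w2, fun ⟨m, e⟩ => ?_⟩
  obtain rfl : O = (m + n) • Om := by rw [add_smul, ← e, mul_d, w3, zp_d, zero_add, add_add_cd]
  rcases z2_cases (m + n) with k | k <;> simp [k, wt_zero, wt_one] at hO

theorem z_conj : ∃ v, qV v ∈ M ∧ piQ v = om ∧ x * zA * x⁻¹ = qV v := by
  obtain ⟨q, h1, h2, h3⟩ := D.exists_even hs nn
  obtain ⟨e, he⟩ := not_forall.1 (mt MT.eq_Om_of_mul h3)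
  obtain ⟨f, hf⟩ := not_forall.1 (mt mem_code_of_dot he)
  obtain ⟨y, y1, y2⟩ := D.img hs nn e
  obtain ⟨u, u1, u2⟩ := D.img hs nn f
  obtain ⟨n, k⟩ := mo_ev h2 e
  obtain ⟨s, w1, w2⟩ := comm_mem (D.xM _ y1) h1 y2 k
  rw [zp_mul_qe] at w1 w2
  obtain ⟨t, v1, v2⟩ := comm_mem (w := aOm) (D.xM _ u1) w1 u2 ((mo_even 1 f _ n (mul_dot_one _ _)).trans (piQ_congr (by
    simp [show (f : W) ⬝ᵥ sW 1 (q.d * e) = 1 from (z2_cases _).resolve_left hf, add_smul, add_comm]) (by simp; rfl)))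
  have y3 := mem_Y.2 ⟨y, y1, (rfl : x * _ * _ = _)⟩
  have y4 := mul_mem y3 (D.nor_Y h1 (inv_mem y3))
  rw [← mul_assoc, ← mul_assoc, w2] at y4
  obtain ⟨r, -, r1⟩ := mem_Y.1 y4
  refine ⟨_, v1, piQ_zp_mul _ _, ?_⟩
  rw [← r1, _root_.conj_inv, _root_.conj_inv, _root_.conj_mul, _root_.conj_mul, _root_.conj_mul, qV_conj, mul_inv_cancel_right] at v2
  rcases zp_cases (pr u.d r.c + pr r.d u.c) with l | l <;> rw [l] at v2
  · exact (om_ne_zero ((piQ_zp_mul t aOm).symm.trans (by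
      rw [← qV_injective ((map_one qV).trans (by simpa using v2) : _ = qV (zp t * aOm)), piQ_one]))).elim
  · exact v2

omit hs nn in
theorem comm_of {n : Aut} (h : n ∈ M) : n * (x * zA * x⁻¹) = x * zA * x⁻¹ * n := by
  have := comm_z (D.MC (D.conj_inv D.xM n h))
  rw [← mul_left_inj x, ← mul_right_inj x⁻¹]
  simpa [mul_assoc] using this

omit hs in
theorem nn_inv : ¬ ∀ q, qV q ∈ M → x⁻¹ * qV q * x⁻¹⁻¹ ∈ qV.range := fun h => nn fun q a => by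
  simpa using (D.inv.conj_inv (S := M ⊓ qV.range) (by rintro _ ⟨a, q, rfl⟩; exact ⟨D.inv.xM _ a, h q a⟩) _ ⟨a, q, rfl⟩).2

theorem xz_cases : zA ∈ M ∧ wA ∈ M ∧ (x * zA * x⁻¹ = wA ∧ x * wA * x⁻¹ = zA * wA ∨
    x⁻¹ * zA * x⁻¹⁻¹ = wA ∧ x⁻¹ * wA * x⁻¹⁻¹ = zA * wA) := by
  obtain ⟨v, v1, v2, v3⟩ := D.z_conj hs nn
  obtain ⟨u, u1, u2, u3⟩ := D.inv.z_conj hs (D.nn_inv nn)
  have a : x * qV v * x⁻¹ = qV u := by rw [← v3, ← u3, ← mul_assoc, ← mul_assoc, ← D.inv_eq, mul_assoc _ x⁻¹, ← D.inv.inv_eq]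
  have b : x⁻¹ * qV u * x⁻¹⁻¹ = qV v := by rw [← a]; group
  have c : u ≠ v := fun e => om_ne_zero (by
    refine v2.symm.trans ((congrArg piQ (qV_injective (show qV v = zA from ?_))).trans piQ_zQ)
    rw [← mul_left_inj x⁻¹, ← mul_right_inj x, ← mul_assoc, ← mul_assoc, a, v3, e])
  rcases piQ_eq_iff.1 v2 with rfl | rfl <;> rcases piQ_eq_iff.1 u2 with rfl | rfl
  · exact (c rfl).elim
  · rw [map_mul] at u1 a
    exact ⟨(mul_mem_cancel_right v1).1 u1, v1, .inl ⟨v3, a⟩⟩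
  · rw [map_mul] at v1 b
    exact ⟨(mul_mem_cancel_right u1).1 v1, u1, .inr ⟨u3, b⟩⟩
  · exact (c rfl).elim

theorem le_NV : M ≤ NV := fun n h => mem_NV.2 ⟨D.MC h, by
  rcases (D.xz_cases hs nn).2.2 with k | k
  exacts [k.1 ▸ D.comm_of h, k.1 ▸ D.inv.comm_of h]⟩

theorem mem_of_even {q : Q} (h : qV q ∈ NV) : qV q ∈ M := by
  obtain ⟨hz, hw, -⟩ := D.xz_cases hs nn
  have v (s n : ZMod 2) : qV (qe s (n • Om) 0) ∈ M := by
    rcases z2_cases s with rfl | rfl <;> rcases z2_cases n with rfl | rfl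
    · rw [zero_smul, ← bq, bq_zero]; exact one_mem _
    · exact aOm_eq ▸ hw
    · exact zQ_eq ▸ hz
    · rw [← zQ_mul_aOm, map_mul]; exact mul_mem hz hw
  have m {s n : ZMod 2} {δ : W} : qV (qe s (n • Om) δ) ∈ M ↔ bq δ ∈ M := by
    rw [qe_Om, map_mul, mul_mem_cancel_left (v s n), bq]
  obtain ⟨p, p1, -, p2⟩ := D.exists_even hs nn
  have F := code_family (T := fun d => ∃ p, qV p ∈ M ∧ p.d = d) ⟨1, by simp, rfl⟩
    (fun _ _ ⟨p, a, b⟩ ⟨q, c, d⟩ => ⟨p * q, by rw [map_mul]; exact mul_mem a c, by rw [mul_d, b, d]⟩) (by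
      rintro σ _ ⟨p, a, rfl⟩
      obtain ⟨n, n1, n2⟩ := D.exists_M hs σ 0
      obtain ⟨s, d, γ, e, l⟩ := exists_xq_bq (D.le_NV hs nn a)
      obtain ⟨t, k⟩ := n2.xq s d
      obtain ⟨r, m, k'⟩ := n2.dp 0 0 γ e
      have b := mul_mem (mul_mem n1 a) (inv_mem n1)
      rw [l, ← _root_.conj_mul, k, bq, ← zero_smul (ZMod 2) Om, k', xq, ← map_mul] at b
      rw [xq, bq, ← map_mul] at l
      replace b := mul_mem b (v 0 m)
      rw [← map_mul] at b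
      exact ⟨_, b, by
        rw [qV_injective l, mul_d, mul_d, mul_d, qe_d, qe_d, qe_d, qe_d, qe_d, add_zero, add_assoc, cd_add_self, add_zero]⟩) ⟨p, p1, rfl⟩
    (ne_of_smul.1 p2).1 (ne_of_smul.1 p2).2
  have E {δ : W} : δ ⬝ᵥ 1 = 0 → bq δ ∈ M := even_family (T := fun δ => bq δ ∈ M) (bq_zero ▸ one_mem _)
    (fun d e a b => bq_add d e ▸ mul_mem a b) (fun σ d a a' => by
      obtain ⟨k, k1, k2⟩ := D.exists_M hs σ 0
      obtain ⟨t, n, e⟩ := k2.dp 0 0 d a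
      exact m.1 (e ▸ mul_mem (mul_mem k1 (m.2 a')) (inv_mem k1))) fun d e => by
    obtain ⟨p, a, rfl⟩ := F d
    obtain ⟨y, y1, y2⟩ := exists_P hs e
    obtain ⟨n, k⟩ := mo_ev (mem_NV_iff.1 (D.le_NV hs nn a)) e
    obtain ⟨s, l, -⟩ := comm_mem (D.PM y1) a y2 k
    exact m.1 (zp_mul_qe _ _ _ _ ▸ l)
  obtain ⟨p, a, b⟩ := F q.d
  rw [← mul_mem_cancel_left a, ← map_mul]
  have c := mul_mem (D.le_NV hs nn a) h
  rw [← map_mul] at c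
  obtain ⟨s, d, δ, e⟩ := qe_surj (p * q)
  obtain rfl : d = (0 : ZMod 2) • Om := by simpa [b] using congrArg Q.d e.symm
  rw [e] at c ⊢
  exact m.2 (E (qV_mem_NV.1 c))

theorem eq_NV : M = NV := le_antisymm (D.le_NV hs nn) fun n h => by
  obtain ⟨σ, c, a⟩ := exists_ind_NV h
  obtain ⟨k, k1, k2⟩ := D.exists_M hs σ c
  obtain ⟨q, e⟩ := (rhoC_eq_one (g := ⟨k, k2.1⟩⁻¹ * ⟨n, a.1⟩)).1 (by rw [map_mul, map_inv, a.2, k2.2, inv_mul_cancel])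
  replace e : qV q = k⁻¹ * n := e
  exact (mul_mem_cancel_left (inv_mem k1)).1 (e ▸ D.mem_of_even hs nn (e ▸ mul_mem (inv_mem (D.le_NV hs nn k1)) h))

end ND

end Cfsg.Lib.Griess.MA
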