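import Cfsg.Agent.Lib.MA.B2
import Cfsg.Agent.Lib.Linear.Simple
import Cfsg.Agent.Lib.Inv.Count

/-! # First consequences of the shapes of the three subgroups -/

set_option autoImplicit false

namespace Cfsg.Lib.Griess.MA

open Subgroup Function

/-- `L₃(2)` -/
abbrev S32 := Matrix.SpecialLinearGroup (Fin 3) (ZMod 2)

theorem card32 : Nat.card S32 = 168 := by
  have := Linear.card_SL_mul (ι := Fin 3) (F := ZMod 2)
  rw [Linear.card_GL, ZMod.card] at this
  simp only [Fintype.card_fin] at this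
  exact (one_mul _).symm.trans this

theorem simple32 : IsSimpleGroup S32 := by
  have hZ : center S32 = ⊥ := card_eq_one.1 (by rw [Linear.card_center_SL, ZMod.card]; rfl)
  have := Linear.isSimpleGroup_PSL (ι := Fin 3) (F := ZMod 2) (Or.inl (by simp))
  exact ((QuotientGroup.quotientMulEquivOfEq hZ).trans QuotientGroup.quotientBot).symm.isSimpleGroup

theorem ord32 (t : S32) : t ^ 3 = 1 ∨ t ^ 4 = 1 ∨ t ^ 7 = 1 := by
  have h := t.2
  suffices t.1 ^ 3 = 1 ∨ t.1 ^ 4 = 1 ∨ t.1 ^ 7 = 1 from this.imp Subtype.ext (.imp Subtype.ext Subtype.ext)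
  generalize t.1 = t at h
  rw [Matrix.det_fin_three] at h
  rw [Matrix.eta_fin_three t]
  generalize t 0 0 = a, t 0 1 = b, t 0 2 = c, t 1 0 = d, t 1 1 = e, t 1 2 = f, t 2 0 = g, t 2 1 = i, t 2 2 = j at h ⊢
  simp only [pow_succ, pow_zero, one_mul, Matrix.mul_fin_three, Matrix.one_fin_three]
  revert a b c d e f g i j
  decide +kernel

/-- the properties of `L₃(2)` that are used -/
structure A168 (A : Type*) [Group A] : Prop where
  card : Nat.card A = 168
  simple : IsSimpleGroup A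
  ord : ∀ t : A, t ^ 3 = 1 ∨ t ^ 4 = 1 ∨ t ^ 7 = 1

theorem a168 : A168 S32 := ⟨card32, simple32, ord32⟩

variable {A : Type} [Group A]

theorem A168.fin (hA : A168 A) : Finite A := Nat.finite_of_card_ne_zero (by rw [hA.card]; decide)

theorem cen32 (hA : A168 A) {t : A} (h : t ^ 3 = 1) (h1 : t ≠ 1) : Nat.card (centralizer {t}) ≤ 3 := by
  have := hA.fin
  have k : IsPGroup 3 (centralizer {t}) := fun ⟨u, hu⟩ => ⟨1, Subtype.ext (by
    have c : Commute u t := mem_centralizer_singleton_iff.1 hu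
    have e (m n : ℕ) (a : u ^ m = 1) (b : (u * t) ^ n = 1) (k : m * n % 3 ≠ 0) : False := h1 (by
      have : (u * t) ^ (m * n) = 1 := by rw [mul_comm m, pow_mul, b, one_pow]
      rw [c.mul_pow, pow_mul u, a, one_pow, one_mul] at this
      exact orderOf_eq_one_iff.1 (Nat.eq_one_of_dvd_coprimes ((Nat.Prime.coprime_iff_not_dvd Nat.prime_three).2
        (mt Nat.mod_eq_zero_of_dvd k)) (orderOf_dvd_of_pow_eq_one h) (orderOf_dvd_of_pow_eq_one this)))
    change u ^ 3 = 1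
    rcases hA.ord (u * t) with a | a
    · rwa [c.mul_pow, h, mul_one] at a
    · exact (hA.ord u).resolve_right fun b => by rcases a with a | a <;> rcases b with b | b <;> exact e _ _ b a (by decide))⟩
  obtain ⟨n, e⟩ := k.exists_card_eq
  have := card_subgroup_dvd_card (centralizer {t})
  rw [e, hA.card] at this
  rw [e]
  by_contra l
  have : 2 ≤ n := by by_contra m; interval_cases n <;> simp at *
  exact absurd ((pow_dvd_pow 3 this).trans ‹_›) (by norm_num)

theorem eq_one32 (hA : A168 A) {H : Subgroup A} (h : H.index = 7) {t : A} (c : ∀ u ∈ H, t * u = u * t) : t = 1 := by_contra fun n => by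
  have := hA.fin
  have k := H.card_mul_index
  rw [h, hA.card] at k
  obtain ⟨⟨u, hu⟩, e⟩ := exists_prime_orderOf_dvd_card' (G := H) 3 (by omega)
  rw [orderOf_mk] at e
  have l := cen32 hA (t := u) (e ▸ pow_orderOf_eq_one u) (by rintro rfl; simp at e)
  have m := (eq_of_le_of_card_ge (zpowers_le.2 (mem_centralizer_singleton_iff.2 rfl)) (by rwa [Nat.card_zpowers, e])).ge
    (mem_centralizer_singleton_iff.2 (c u hu))
  have := (card_le_of_le (show H ≤ centralizer {t} from fun u hu => mem_centralizer_singleton_iff.2 (c u hu).symm)).trans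
    (cen32 hA (orderOf_dvd_iff_pow_eq_one.1 (e ▸ orderOf_dvd_of_mem_zpowers m)) n)
  omega

theorem le_of_cop {Γ : Type*} [Group Γ] [Finite Γ] {K H : Subgroup Γ} [K.Normal] (h : (Nat.card K).Coprime H.index) : K ≤ H := by
  have a := Core.card_sup_mul_card_inf (H := H) (N := K) (le_top.trans (normalizer_eq_top K).ge)
  rw [← Core.card_mul_relIndex (le_sup_left : H ≤ H ⊔ K), mul_assoc, mul_right_inj' Nat.card_pos.ne'] at a
  exact le_sup_right.trans (relIndex_eq_one.1 (Nat.eq_one_of_dvd_coprimes h (Dvd.intro _ a) (relIndex_dvd_index_of_le le_sup_left)))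

theorem cop_two {K : Type*} [Group K] [Finite K] (h : IsPGroup 2 K) {n : ℕ} (e : Odd n) : (Nat.card K).Coprime n :=
  let ⟨j, k⟩ := h.exists_card_eq
  k ▸ (Nat.coprime_two_left.2 e).pow_left j

variable {G : Type*} [Group G]

/-- The three subgroups. -/
structure Am (A : Type) [Group A] (C N L : Subgroup G) where
  hA : A168 A
  fin : Finite C
  /-- `N → S₃ × M₂₄` -/
  ν : N →* Equiv.Perm (Fin 3) × M24
  νs : Surjective ν
  νk : IsPGroup 2 ν.ker
  /-- `L → L₃(2)` -/
  α : L →* A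
  αs : Surjective α
  α7 : ¬ 7 ∣ Nat.card α.ker
  α27 : 27 ∣ Nat.card α.ker
  hNC : C.relIndex N = 3
  hLN : N.relIndex L = 7
  hLC : C.relIndex L = 7
  hLNC : (N ⊓ C).relIndex L = 21

theorem fin_of {C N : Subgroup G} (h : Finite C) (e : C.relIndex N ≠ 0) : Finite N := Nat.finite_of_card_ne_zero (by
  have := Finite.of_injective _ (inclusion_injective (inf_le_left : C ⊓ N ≤ C))
  rw [← Core.card_inf_mul_relIndex C N]; exact mul_ne_zero Nat.card_pos.ne' e)

namespace Am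

variable {C N L : Subgroup G} (D : Am A C N L)
include D

theorem finN : Finite N := fin_of D.fin (by rw [D.hNC]; decide)
theorem finL : Finite L := fin_of D.fin (by rw [D.hLC]; decide)

theorem mem_C {n : N} (h : (D.ν n).1 = 1) : (n : G) ∈ C := by
  have := D.finN
  have := Cfsg.Agent.S0365.result
  have k : D.ν.ker ≤ C.subgroupOf N := le_of_cop (cop_two D.νk (by rw [← relIndex, D.hNC]; decide))
  have i : ((C.subgroupOf N).map D.ν).index = 3 := (index_map_eq _ D.νs k).trans D.hNC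
  have t : ((C.subgroupOf N).map D.ν).comap (MonoidHom.inr _ _) = ⊤ := by_contra fun e => by
    have a := Inv.card_dvd_factorial_index e
    have b := relIndex_le_of_le_right (H := (C.subgroupOf N).map D.ν) (K := (MonoidHom.inr _ _).range) le_top
      (by rw [relIndex_top_right, i]; decide)
    rw [← index_comap, relIndex_top_right, i] at b
    have := (Nat.le_of_dvd (Nat.factorial_pos _) a).trans (Nat.factorial_le b)
    rw [Mathieu.card_M24] at this
    exact absurd this (by decide)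
  exact (comap_map_eq_self k).le (show D.ν n ∈ _ from by
    have := t.ge (mem_top (D.ν n).2)
    rwa [mem_comap, MonoidHom.inr_apply, ← h] at this)

theorem card_im : Nat.card ((C.subgroupOf N).map ((MonoidHom.fst _ _).comp D.ν)) = 2 := by
  have := card_mul_index ((C.subgroupOf N).map ((MonoidHom.fst _ _).comp D.ν))
  rw [index_map_eq (f := (MonoidHom.fst _ _).comp D.ν) _ (Prod.fst_surjective.comp D.νs) fun n h => D.mem_C h, ← relIndex, D.hNC, Nat.card_perm] at this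
  simp only [Nat.card_eq_fintype_card, Fintype.card_fin] at this ⊢
  exact Nat.eq_of_mul_eq_mul_right (by decide : 0 < 3) this

theorem sq_of_mem {n : N} (h : (n : G) ∈ C) : (D.ν n).1 ^ 2 = 1 :=
  orderOf_dvd_iff_pow_eq_one.1 (D.card_im ▸ Subgroup.orderOf_dvd_natCard _ ⟨n, h, rfl⟩)

theorem kerL : D.α.ker ≤ C.subgroupOf L ∧ D.α.ker ≤ N.subgroupOf L :=
  have := D.finL
  have k := ((by norm_num : Nat.Prime 7).coprime_iff_not_dvd.2 D.α7).symm
  ⟨le_of_cop (by rwa [← relIndex, D.hLC]), le_of_cop (by rwa [← relIndex, D.hLN])⟩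

theorem α_eq_one {t : L} (h : ∀ u ∈ C, u ∈ L → t * u = u * t) : D.α t = 1 :=
  eq_one32 D.hA ((index_map_eq _ D.αs D.kerL.1).trans D.hLC) (by
    rintro _ ⟨u, k, rfl⟩
    rw [← map_mul, ← map_mul, show t * u = u * t from Subtype.ext (h u k u.2)])

theorem exists_x : ∃ x ∈ L, ∃ h : x ∈ N, x ^ 3 = 1 ∧ (D.ν ⟨x, h⟩).2 = 1 ∧ x ∉ C := by
  have := D.finL
  have := D.finN
  have : Finite ↥(N ⊓ L) := Finite.of_injective _ (inclusion_injective inf_le_left)
  have a := Core.card_inf_mul_relIndex N L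
  rw [D.hLN, ← card_mul_index D.α.ker, index_ker, MonoidHom.range_eq_top.2 D.αs, card_top, D.hA.card] at a
  obtain ⟨R, hR⟩ := Sylow.exists_subgroup_card_pow_prime (G := ↥(N ⊓ L)) 3 (n := 4) (by have := D.α27; omega)
  let f := (MonoidHom.snd _ _).comp (D.ν.comp ((inclusion inf_le_left).comp R.subtype))
  obtain ⟨⟨r, r1⟩, r2⟩ := ne_bot_iff_exists_ne_one.1 fun e : f.ker = ⊥ => by
    have := card_dvd_of_injective f ((f.ker_eq_bot_iff).1 e)
    rw [hR, Mathieu.card_M24] at this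
    omega
  obtain ⟨j, hj⟩ := IsPGroup.of_card hR r
  replace hj : (inclusion inf_le_left r.1 : N) ^ 3 ^ j = 1 := by simpa using congr(inclusion inf_le_left $hj.1)
  replace r2 : (inclusion inf_le_left r.1 : N) ≠ 1 := fun e => r2 (Subtype.ext (Subtype.ext (Subtype.ext (congrArg Subtype.val e :))))
  have k {n : N} (a : n ^ 3 ^ j = 1) (b : D.ν n = 1) : n = 1 :=
    let ⟨i, e⟩ := D.νk ⟨n, b⟩
    orderOf_eq_one_iff.1 (Nat.eq_one_of_dvd_coprimes (Nat.Coprime.pow j i (by norm_num)) (orderOf_dvd_of_pow_eq_one a)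
      (orderOf_dvd_of_pow_eq_one (congrArg Subtype.val e)))
  have r3 : (D.ν (inclusion inf_le_left r.1)).2 = 1 := r1
  have r4 := r.1.2.2
  change ((inclusion inf_le_left r.1 : N) : G) ∈ L at r4
  generalize inclusion inf_le_left r.1 = x at hj r2 r3 r4
  have x1 : (D.ν x).1 ^ 3 = 1 := by
    have a : orderOf (D.ν x).1 ∣ 3 ^ j := orderOf_dvd_of_pow_eq_one (by rw [← Prod.pow_fst, ← map_pow, hj]; simp)
    have := (by decide : ∀ c : Equiv.Perm (Fin 3), c ^ 3 = 1 ∨ c ^ 2 = 1) (D.ν x).1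
    exact this.elim id fun b => by
      rw [orderOf_eq_one_iff.1 (Nat.eq_one_of_dvd_coprimes (Nat.Coprime.pow_left j (by norm_num)) a
        (orderOf_dvd_of_pow_eq_one b)), one_pow]
  refine ⟨x, r4, x.2, congrArg Subtype.val (k (n := x ^ 3) (by rw [← pow_mul, mul_comm, pow_mul, hj, one_pow])
    (by rw [map_pow]; exact Prod.ext x1 (by simp [r3]))), r3, fun c => r2 (k hj (Prod.ext ?_ r3))⟩
  rw [pow_succ, D.sq_of_mem c, one_mul] at x1
  exact x1

theorem exists_r {x : G} (hL : x ∈ L) (h : x ∈ N) (x3 : x ^ 3 = 1) (x2 : (D.ν ⟨x, h⟩).2 = 1) (xC : x ∉ C) :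
    ∃ r : N, D.ν r = 1 ∧ ∃ hr : (r : G) ∈ L, D.α ⟨x * r * x⁻¹ * (r : G)⁻¹, mul_mem (mul_mem (mul_mem hL hr) (inv_mem hL)) (inv_mem hr)⟩ ≠ 1 := by
  have := D.finL
  have := D.hA.fin
  have t3 : D.α ⟨x, hL⟩ ^ 3 = 1 := by rw [← map_pow, show (⟨x, hL⟩ : L) ^ 3 = 1 from Subtype.ext x3, map_one]
  have t1 : D.α ⟨x, hL⟩ ≠ 1 := fun e => xC (D.kerL.1 e)
  let N0 := ((MonoidHom.fst _ _).comp D.ν).ker.map N.subtype
  have i : (N0.subgroupOf L).index ≤ 42 := by
    rw [← relIndex, ← inf_eq_left.2 (show N0 ≤ N from map_subtype_le _), ← relIndex_inf_mul_relIndex, D.hLN]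
    refine Nat.mul_le_mul_right 7 (show _ ≤ 6 from (relIndex_le_of_le_right inf_le_left ?_).trans ?_) <;>
      rw [relIndex, ← comap_subtype, comap_map_eq_self_of_injective N.subtype_injective, index_ker,
        MonoidHom.range_eq_top.2 (Prod.fst_surjective.comp D.νs), card_top, Nat.card_perm] <;> simp [Nat.factorial]
  obtain ⟨_, ⟨u, ⟨r, r1, r2⟩, rfl⟩, u1⟩ := SetLike.not_le_iff_exists.1 fun e : (N0.subgroupOf L).map D.α ≤ centralizer {_} => by
    have a := (card_le_of_le e).trans (cen32 D.hA t3 t1)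
    have b := card_mul_index ((N0.subgroupOf L).map D.α)
    have c := (Nat.le_of_dvd (Nat.pos_of_ne_zero index_ne_zero_of_finite) (index_map_dvd _ D.αs)).trans i
    rw [D.hA.card] at b
    nlinarith
  replace r2 : (r : G) = u := r2
  have p1 : D.ν (⟨x, h⟩ * r * ⟨x, h⟩⁻¹ * r⁻¹) = 1 := by
    simp only [map_mul, map_inv]
    exact Prod.ext (by simp [show (D.ν r).1 = 1 from r1]) (by simp [x2])
  have m : ((⟨x, h⟩ * r * ⟨x, h⟩⁻¹ * r⁻¹ : N) : G) = (⟨x, hL⟩ * u * ⟨x, hL⟩⁻¹ * u⁻¹ : L) := by simp [r2]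
  refine ⟨_, p1, m ▸ SetLike.coe_mem _, fun e => u1 ?_⟩
  obtain ⟨j, hj⟩ := D.νk ⟨_, p1⟩
  have a : D.α (⟨x, hL⟩ * u * ⟨x, hL⟩⁻¹ * u⁻¹) ^ 2 ^ j = 1 := by
    rw [← map_pow, show _ ^ 2 ^ j = (1 : L) from Subtype.ext (by rw [coe_pow, ← m]; exact congr($hj.1.1)), map_one]
  replace e : D.α (⟨x, hL⟩ * (⟨x, hL⟩ * u * ⟨x, hL⟩⁻¹ * u⁻¹) * ⟨x, hL⟩⁻¹ * (⟨x, hL⟩ * u * ⟨x, hL⟩⁻¹ * u⁻¹)⁻¹) = 1 :=
    (congrArg D.α (Subtype.ext (by simp [r2]))).trans e
  simp only [map_mul, map_inv] at a e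
  rw [mem_centralizer_singleton_iff, eq_comm, ← mul_inv_eq_iff_eq_mul, ← mul_inv_eq_one]
  generalize D.α u = v at a e ⊢
  generalize D.α ⟨x, hL⟩ = t at a e t3 ⊢
  have b : (t * v * t⁻¹ * v⁻¹) ^ 3 = 1 := by
    rw [mul_inv_eq_one] at e
    rw [pow_three]
    nth_rw 1 [← e, ← e]
    nth_rw 2 [← e]
    calc _ = t ^ 3 * v * (t ^ 3)⁻¹ * v⁻¹ := by simp only [pow_three]; group
      _ = 1 := by simp [t3]
  exact orderOf_eq_one_iff.1 (Nat.eq_one_of_dvd_coprimes (Nat.Coprime.pow_left j (by norm_num)) (orderOf_dvd_of_pow_eq_one a)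
    (orderOf_dvd_of_pow_eq_one b))

end Am

end Cfsg.Lib.Griess.MA
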