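import Cfsg.Agent.Lib.MA.B4
import Cfsg.Agent.Lib.MA.LF

/-! # The subgroup `N` is the normalizer of the four-group -/

set_option autoImplicit false

namespace Cfsg.Lib.Griess.MA

open Matrix Subgroup MulAction Cfsg.Lib.Leech Cfsg.Lib.Mon Cfsg.Spor Function

theorem le_or_le {G : Type*} [Group G] {H K N : Subgroup G} {p : ℕ} (hp : p.Prime) (h : H.relIndex N = p) (k : H ⊓ N ≤ K) :
    N ≤ K ∨ K ⊓ N ≤ H := by
  have := relIndex_mul_relIndex (H ⊓ N) (K ⊓ N) N (le_inf k inf_le_right) inf_le_right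
  rw [inf_relIndex_right, inf_relIndex_right, h] at this
  exact ((Nat.dvd_prime hp).1 (Dvd.intro_left _ this)).imp relIndex_eq_one.1 fun e => (relIndex_eq_one.1 (by
    rwa [e, mul_left_eq_self₀, or_iff_left hp.ne_zero] at this)).trans inf_le_left

/-- change of coordinates -/
abbrev AQ.chg (I : AQ) (c : I.C) : AQ :=
  { I with
    q := (MulAut.conj (c : Aut)).toMonoidHom.comp qV
    inj := (MulAut.conj (c : Aut)).injective.comp qV_injective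
    mem x := mul_mem (mul_mem c.2 (qV_mem x)) (inv_mem c.2)
    ρ := rhoC.comp (MulAut.conj c⁻¹).toMonoidHom
    surj := I.surj.comp (MulAut.conj c⁻¹).surjective
    ker g := rhoC_eq_one.trans ⟨fun ⟨x, e⟩ => ⟨x, by simp [e, mul_assoc]⟩, fun ⟨x, e⟩ => ⟨x, by simp [← e, mul_assoc]⟩⟩
    conj g x := let ⟨y, a, b⟩ := I.conj (c⁻¹ * g * c⁻¹⁻¹) x; ⟨y, by simp [← a, mul_assoc], b⟩ }

variable [AQ]

theorem mem_NV_of {g : CZ} (h : rhoC g • om = om) : (g : Aut) ∈ NV ∨ bq (e1 none) * g ∈ NV :=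
  (smul_om.1 h).imp (fun k => mem_NV.2 ⟨g.2, mul_inv_eq_iff_eq_mul.1 k⟩) fun k => mem_NV.2 ⟨mul_mem (bq_mem_CZ _) g.2, by
    have := bq_conj_wA (e1 none)
    rw [e1_dot, Pi.one_apply, zp_one, ← map_mul, ← k] at this
    rw [mul_assoc, mul_inv_eq_iff_eq_mul.1 this.symm]
    simp only [← mul_assoc, bq_mul_self, one_mul]⟩

namespace Am

variable {A : Type} [Group A] {N L : Subgroup Aut} (D : Am A CZ N L)

/-- the preimage of `M₂₄` -/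
def MM : Subgroup Aut := ((MonoidHom.fst _ _).comp D.ν).ker.map N.subtype
/-- `O₂(N)` -/
def PP : Subgroup Aut := D.ν.ker.map N.subtype

theorem mem_MM {g : Aut} : g ∈ D.MM ↔ ∃ h : g ∈ N, (D.ν ⟨g, h⟩).1 = 1 :=
  ⟨by rintro ⟨n, a, rfl⟩; exact ⟨n.2, a⟩, fun ⟨a, b⟩ => ⟨_, b, rfl⟩⟩
theorem mem_PP {g : Aut} : g ∈ D.PP ↔ ∃ h : g ∈ N, D.ν ⟨g, h⟩ = 1 :=
  ⟨by rintro ⟨n, a, rfl⟩; exact ⟨n.2, a⟩, fun ⟨a, b⟩ => ⟨_, b, rfl⟩⟩
theorem MM_le : D.MM ≤ N := map_subtype_le _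

theorem nor_MM {n g : Aut} (h : n ∈ N) (k : g ∈ D.MM) : n * g * n⁻¹ ∈ D.MM :=
  let ⟨s, a, e⟩ := k
  ⟨_, (MonoidHom.normal_ker _).conj_mem s a ⟨n, h⟩, by simp [← e]⟩
theorem nor_PP {n g : Aut} (h : n ∈ N) (k : g ∈ D.PP) : n * g * n⁻¹ ∈ D.PP :=
  let ⟨s, a, e⟩ := k
  ⟨_, (MonoidHom.normal_ker _).conj_mem s a ⟨n, h⟩, by simp [← e]⟩

theorem nd {x : Aut} (h : x ∈ N) (x3 : x ^ 3 = 1) (x2 : (D.ν ⟨x, h⟩).2 = 1) : ND D.MM D.PP x where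
  PM _ := fun ⟨s, a, e⟩ => ⟨s, show (D.ν s).1 = 1 by rw [a]; rfl, e⟩
  MC _ := fun ⟨_, a, e⟩ => e ▸ D.mem_C a
  xP _ := D.nor_PP h
  cm := by
    rintro _ ⟨s, a, rfl⟩
    exact ⟨⟨x, h⟩ * s * ⟨x, h⟩⁻¹ * s⁻¹, Prod.ext (by simp [show (D.ν s).1 = 1 from a]) (by simp [x2]), rfl⟩
  x3 := x3
  hP := D.νk.map _
  μ := ⟨(MonoidHom.snd _ _).comp (D.ν.comp (inclusion D.MM_le)), fun σ => let ⟨n, e⟩ := D.νs (1, σ)
    ⟨⟨n, n, congrArg Prod.fst e, rfl⟩, congrArg Prod.snd e⟩, Subgroup.ext fun ⟨g, hg⟩ => ⟨fun e => D.mem_PP.2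
      ⟨_, Prod.ext (D.mem_MM.1 hg).2 e⟩, fun e => congrArg Prod.snd (D.mem_PP.1 e).2⟩⟩

theorem α_z {l : Aut} (h : l ∈ L) (k : l * zA * l⁻¹ ∈ L) : D.α ⟨_, k⟩ = 1 := by
  have z : zA ∈ L := by simpa [mul_assoc] using mul_mem (mul_mem (inv_mem h) k) h
  rw [show (⟨_, k⟩ : L) = ⟨l, h⟩ * ⟨_, z⟩ * ⟨l, h⟩⁻¹ from rfl, map_mul, map_mul,
    D.α_eq_one (t := ⟨_, z⟩) fun u a _ => (comm_z a).symm, mul_one, map_inv, mul_inv_cancel]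

theorem exists_nd : ∃ x ∈ L, x ∈ N ∧ ND D.MM D.PP x ∧ ∃ r ∈ D.PP,
    ¬ ((∀ s ∈ D.MM ⊓ qV.range, x * s * x⁻¹ ∈ D.MM ⊓ qV.range) ∧ x * r * x⁻¹ * r⁻¹ ∈ D.MM ⊓ qV.range) := by
  obtain ⟨x, a, b, c, d, e⟩ := D.exists_x
  obtain ⟨r, r1, r2, r3⟩ := D.exists_r a b c d e
  refine ⟨x, a, b, D.nd b c d, r, ⟨r, r1, rfl⟩, fun ⟨u, v⟩ => r3 ?_⟩
  generalize_proofs m
  have k {l} (hl : l ∈ L) (e : x * r * x⁻¹ * (r : Aut)⁻¹ = l * zA * l⁻¹) : D.α ⟨_, m⟩ = 1 := by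
    rw [← D.α_z hl (e ▸ m)]; exact congrArg _ (Subtype.ext e)
  rcases (D.nd b c d).b2' u v with l | l | l | l
  exacts [(congrArg _ (Subtype.ext l)).trans (map_one _), k (one_mem _) (by simpa using l), k a l, k (inv_mem a) (by simpa using l)]

theorem exists_signs : ∃ a : Co1, ∀ t, t ∈ im D.PP ↔ a * t * a⁻¹ ∈ signs :=
  let ⟨_, _, _, h, r, a, b⟩ := D.exists_nd
  h.exists_signs fun e => b (by
    rw [le_antisymm h.Q1 (le_inf h.PM ((im_eq_bot (h.PM.trans h.MC)).1 e))]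
    exact ⟨h.xP, mul_mem (h.xP r a) (inv_mem a)⟩)

variable (hs : im D.PP = signs)
include hs

theorem smul_om_of {g : CZ} (h : (g : Aut) ∈ N) : rhoC g • om = om := by
  have := finite_co1
  rw [om_eq, ← mem_stabilizer_iff, ← CoT.normalizer_signs, ← hs]
  exact mem_normalizer_fintype (im_conj g.2 fun _ => D.nor_PP h)

theorem exists_sw : D.MM = NV ∧ ∃ x ∈ L, Sw N x := by
  obtain ⟨x, a, b, h, r, c, d⟩ := D.exists_nd
  have nn : ¬ ∀ q, qV q ∈ D.MM → x * qV q * x⁻¹ ∈ qV.range := fun k =>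
    have k : ∀ s ∈ D.MM ⊓ qV.range, x * s * x⁻¹ ∈ D.MM ⊓ qV.range := by
      rintro _ ⟨u, q, rfl⟩; exact ⟨h.xM _ u, k q u⟩
    d ⟨k, h.mem_of_nor hs k c⟩
  have e := h.eq_NV hs nn
  have le : NV ≤ N := e ▸ D.MM_le
  have hb : bq (e1 none) ∈ N := by
    obtain ⟨⟨_, s, s1, rfl⟩, s2⟩ := ne_bot_iff_exists_ne_one.1 fun k => absurd ((card_eq_one.2 k).symm.trans D.card_im) (by decide)
    exact (mem_NV_of (D.smul_om_of hs (g := ⟨s, s1⟩) s.2)).elim (fun k => (s2 (Subtype.ext (D.mem_MM.1 (e ▸ k)).2)).elim)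
      fun k => (mul_mem_cancel_right s.2).1 (le k)
  have w {y} (a : y ∈ N) (h : ND D.MM D.PP y) (nn : ¬ ∀ q, qV q ∈ D.MM → y * qV q * y⁻¹ ∈ qV.range)
      (k : y * zA * y⁻¹ = wA ∧ y * wA * y⁻¹ = zA * wA) : Sw N y :=
    ⟨a, fun q => (mem_NV_of (g := ⟨_, qV_mem q⟩) (by rw [rhoC_eq_one.2 ⟨q, rfl⟩, one_smul])).elim (@le _)
      fun k => (mul_mem_cancel_left hb).1 (le k), k.1, k.2, fun _ a _ b => e ▸ D.nor_MM a (e ▸ b), fun n u v =>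
      (le_or_le Nat.prime_three D.hNC (K := centralizer {zA}) fun g u => mem_centralizer_singleton_iff.2 (comm_z u.1)).resolve_left
        (fun l => zero_ne_one (congrArg Q.s (qV_injective (k.1.symm.trans (mul_inv_eq_iff_eq_mul.2
          (mem_centralizer_singleton_iff.1 (l a))))))) ⟨mem_centralizer_singleton_iff.2 v, u⟩, e ▸ h.img hs nn⟩
  exact ⟨e, (h.xz_cases hs nn).2.2.elim (fun k => ⟨x, a, w b h nn k⟩) fun k =>
    ⟨x⁻¹, inv_mem a, w (inv_mem b) h.inv (h.nn_inv nn) k⟩⟩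

theorem mem_N_iff {g : CZ} : (g : Aut) ∈ N ↔ rhoC g • om = om :=
  let ⟨e, _, _, h⟩ := D.exists_sw hs
  ⟨D.smul_om_of hs, fun k => (mem_NV_of k).elim (fun k => D.MM_le (e ▸ k)) fun k =>
    (mul_mem_cancel_left (h.q _)).1 (D.MM_le (e ▸ k))⟩

end Am

end Cfsg.Lib.Griess.MA
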