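import Cfsg.Agent.Lib.MT.Co1
import Cfsg.Agent.Lib.M4.V4
import Cfsg.Agent.Lib.M3.PT
import Cfsg.Agent.Lib.Mathieu.Classes

/-! # Elements of order 23 in `Co₁`, and `2`-subgroups normalized by a lift of `M₂₄` -/

set_option autoImplicit false

namespace Cfsg.Lib.Griess.MA

open Subgroup MulAction Cfsg.Lib.Leech Cfsg.Lib.Mon Cfsg.Lib.CoT Cfsg.Spor

section
variable {G : Type*} [Group G] {p : ℕ} [Fact p.Prime] {T : Set G} {y : G}

theorem modEq_fix (hT : T.Finite) (hy : y ^ p = 1) (h : ∀ t ∈ T, y * t * y⁻¹ ∈ T) :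
    T.ncard ≡ {t | t ∈ T ∧ y * t = t * y}.ncard [MOD p] := by
  classical
  have := hT.fintype
  let f : Function.End T := fun t => ⟨_, h t t.2⟩
  have k (n : ℕ) (t : T) : ((f ^ n) t : G) = y ^ n * t * (y ^ n)⁻¹ := by
    induction n with
    | zero => simp; rfl
    | succ n ih => rw [pow_succ', pow_succ']; change y * ((f ^ n) t : G) * y⁻¹ = _; rw [ih]; group
  have := Equiv.Perm.card_fixedPoints_modEq (f := f) (p := p) (n := 1) (funext fun t => Subtype.ext (by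
    rw [k, pow_one, hy]; simp; rfl))
  rw [← Nat.card_eq_fintype_card, ← Nat.card_eq_fintype_card, Nat.card_coe_set_eq, Nat.card_coe_set_eq,
    ← Set.ncard_image_of_injective _ Subtype.val_injective] at this
  convert this using 2
  ext t
  exact ⟨fun ⟨a, b⟩ => ⟨⟨t, a⟩, Subtype.ext (mul_inv_eq_iff_eq_mul.2 b), rfl⟩, by
    rintro ⟨t, a, rfl⟩; exact ⟨t.2, mul_inv_eq_iff_eq_mul.1 (congrArg Subtype.val a)⟩⟩

theorem exists_fix (hy : y ^ p = 1) (h : ∀ t ∈ T, y * t * y⁻¹ ∈ T) (h' : ¬ p ∣ T.ncard) : ∃ t ∈ T, y * t = t * y := by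
  have := modEq_fix (Set.finite_of_ncard_ne_zero fun e => h' (e ▸ dvd_zero _)) hy h
  by_contra k
  rw [Set.eq_empty_of_forall_notMem (s := {t | t ∈ T ∧ y * t = t * y}) fun t a => k ⟨t, a⟩, Set.ncard_empty] at this
  exact h' ((Nat.modEq_zero_iff_dvd).1 this)

theorem modEq_cen {H : Subgroup G} [Finite H] (hy : y ^ p = 1) (h : ∀ t ∈ H, y * t * y⁻¹ ∈ H) :
    Nat.card H ≡ Nat.card ↥(H ⊓ centralizer {y}) [MOD p] := by
  have := modEq_fix (T := H) (Set.toFinite _) hy h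
  rw [← Nat.card_coe_set_eq, ← Nat.card_coe_set_eq] at this
  exact this.trans (Nat.ModEq.rfl.trans (by
    rw [Nat.card_congr (Equiv.subtypeEquivRight (q := (· ∈ H ⊓ centralizer {y})) fun t => by
      rw [mem_inf, mem_centralizer_singleton_iff, eq_comm]; rfl)]))

end

theorem cen24 (g : M24) : ∃ p ∈ Mathieu.c24, orderOf g = Mathieu.ordT p.1 ∧ Nat.card (centralizer {g}) = p.2 := by
  obtain ⟨p, hp, x, -, r, c, e⟩ := Mathieu.cls24.exists_rep (mem_top g)
  exact ⟨p, hp, (Grp.orderOf_of_mem_cl c).trans (Mathieu.R.orderOf_eq r (Mathieu.ne_of_not_beq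
    (Grp.allP_iff.1 Mathieu.ord_c24 p hp))), by rwa [top_inf_eq] at e⟩

theorem eq_one_of_comm {σ ρ : M24} (h : orderOf σ = 23 ∨ orderOf σ = 11) (c : ρ * σ = σ * ρ) {n : ℕ} (e : ρ ^ 2 ^ n = 1) : ρ = 1 := by
  obtain ⟨p, hp, a, b⟩ := cen24 σ
  have := (by decide +kernel : ∀ p ∈ Mathieu.c24, Mathieu.ordT p.1 = 23 ∨ Mathieu.ordT p.1 = 11 → p.2 % 2 = 1) p hp (a ▸ h)
  have k := Subgroup.orderOf_dvd_natCard _ (mem_centralizer_singleton_iff.2 c)
  exact orderOf_eq_one_iff.1 (Nat.eq_one_of_dvd_coprimes (Nat.Coprime.pow_right n (Nat.coprime_two_right.2 (Nat.odd_iff.2 this)))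
    (b ▸ k) (orderOf_dvd_of_pow_eq_one e))

theorem px_eq (σ : M24) : px σ = (mo σ 0 : Co1) := by
  have : mo σ 0 = permHom σ := by
    rw [← one_mul (permHom σ), ← sg0_empty, ← mono_eq_sg0 σ GC_empty, mo]; congr 1
  rw [this]; rfl

theorem smul_om_ne (a : Co1) {y : Q} (h : Short y) : a • om ≠ piQ y := fun e => by
  obtain ⟨a, rfl⟩ := QuotientGroup.mk_surjective a
  obtain ⟨c, -, e⟩ := M3.conj_w_of_nm (x := y) (v := a • e8 none) ((sqNorm_smul _ _).trans (sqNorm_e8 _))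
    (by rw [← e, om_eq]; rfl)
  exact M3.not_isConj h (M3.isConj_w.trans (isConj_iff.2 ⟨_, e⟩))

theorem q2_smul' (a : Co1) (v : L2) : q2 (a • v) = q2 v := by
  obtain ⟨a, rfl⟩ := QuotientGroup.mk_surjective a
  exact q2_smul a v

/-- the class of `b_i` -/
noncomputable abbrev wv (i : Pt) : L2 := piQ (eW 0 i)

theorem q2_om : q2 om = 0 := by simp [q2_piQ]
theorem q2_wv (i : Pt) : q2 (wv i) = 0 := by simp [q2_piQ, eW_zero]
theorem q2_ow (i : Pt) : q2 (om + wv i) = 1 := by simp [← piQ_mul, q2_piQ, eW_zero]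
theorem q2_zero : q2 0 = 0 := by simp [← piQ_one, q2_piQ]

theorem mo_wv (σ : M24) (c : Cd) (i : Pt) : (mo σ c : Co1) • wv i = piQ (eW c ((σ : Equiv.Perm Pt) i)) := by
  rw [mk_smul, wv, ← mk_lW, Leech.smul_mk, mo_lW, mk_lW, sC_zero, add_zero]

/-- The fixed space of an element of order `23`. -/
theorem f23 {g : Co1} (hg : orderOf g = 23) : ∃ (a : Co1) (i : Pt),
    (∀ v : L2, g • v = v ↔ v = 0 ∨ v = a • om ∨ v = a • wv i ∨ v = a • (om + wv i)) ∧
    (∃ σ, orderOf σ = 23 ∧ g = a * px σ * a⁻¹) ∧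
    ∀ t : Co1, (∀ v : L2, g • v = v → g • t • v = t • v) → ∃ ρ : M24, (ρ : Equiv.Perm Pt) i = i ∧ t = a * px ρ * a⁻¹ := by
  have : Fact (Nat.Prime 23) := ⟨by norm_num⟩
  have r : Mathieu.R (Mathieu.mk 956302485175575353788796878166559809) _ := Mathieu.mk_rep (by decide +kernel)
  have h1 := lrep_sg_px r (m := 0) (Golay.G.toF_zero ▸ GC_empty)
  rw [Golay.G.toF_zero, sg_empty, one_mul] at h1
  have h2 : orderOf (Mathieu.mk 956302485175575353788796878166559809)⁻¹ = 23 := by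
    rw [orderOf_inv, r.orderOf_eq (by decide +kernel)]; decide +kernel
  have h4 := ncard_fix_le h1 fix23
  generalize (Mathieu.mk 956302485175575353788796878166559809)⁻¹ = u at h2 h4
  have h3 : orderOf (px u) = 23 := by rw [orderOf_injective px px_injective, h2]
  have := finite_co1
  obtain ⟨a, -, ha⟩ := F2.exists_conj_mem (H := ⊤) (S := zpowers (px u)) (p := 23) (k := 1) le_top
    (IsPGroup.of_card (n := 1) (by rw [Nat.card_zpowers, h3, pow_one])) (by
      have := (zpowers (px u)).index_mul_card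
      rw [Nat.card_zpowers, h3, card_Co1] at this
      rw [relIndex_top_right]
      omega) (mem_top g) (by rw [pow_one, ← hg, pow_orderOf_eq_one])
  have h5 := (eq_of_le_of_card_ge (zpowers_le.2 ha) (by
      rw [Nat.card_zpowers, Nat.card_zpowers, Mathieu.orderOf_conj', hg, h3])).ge (mem_zpowers _)
  obtain ⟨k, e⟩ := mem_zpowers_iff.1 ha
  rw [← map_zpow] at e
  have h6 : orderOf (u ^ k) = 23 := by rw [← orderOf_injective px px_injective, e, Mathieu.orderOf_conj', hg]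
  generalize u ^ k = σ at e h6
  obtain ⟨i, hi⟩ := Finset.card_eq_one.1 (List.mem_singleton.1 (Mathieu.card_fixP_mem (l := [1]) (by decide +kernel) σ.2
    ((orderOf_coe σ).trans h6)))
  replace hi : (σ : Equiv.Perm Pt) i = i := (Finset.mem_filter.1 (hi.ge (Finset.mem_singleton_self i))).2
  have f1 : px σ • om = om := by rw [px_eq, mk_smul, mo_om]
  have f2 : px σ • wv i = wv i := by rw [px_eq, mo_wv, hi]
  have n1 : wv i ≠ 0 := fun e => by simpa [e, q2_om] using q2_ow i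
  have n2 : om ≠ wv i := by simpa using smul_om_ne 1 (short_eW 0 i)
  have n3 {v} (h : q2 v = 0) : v ≠ om + wv i := fun e => by simp [e, q2_ow] at h
  have := finite_L2
  have key : {v : L2 | px σ • v = v} = {0, om, wv i, om + wv i} := (Set.eq_of_subset_of_ncard_le (by
    rintro _ (rfl | rfl | rfl | rfl)
    exacts [smul_zero _, f1, f2, (smul_add _ _ _).trans (by rw [f1, f2])]) (by
    rw [Set.ncard_insert_of_notMem (by simp [om_ne_zero.symm, n1.symm, n3 q2_zero]),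
      Set.ncard_insert_of_notMem (by simp [n2, n1]), Set.ncard_pair (n3 (q2_wv i))]
    refine (Set.ncard_le_ncard fun v hv => ?_).trans h4
    exact (zpowers_le.2 (mem_stabilizer_iff.2 (e ▸ hv)) : _ ≤ stabilizer Co1 v) h5)).symm
  obtain rfl : g = a⁻¹ * px σ * a⁻¹⁻¹ := by rw [e]; group
  have fx (v : L2) : (a⁻¹ * px σ * a⁻¹⁻¹) • v = v ↔ a • v ∈ ({0, om, wv i, om + wv i} : Set L2) := by
    rw [← key, inv_inv, mul_smul, mul_smul, inv_smul_eq_iff]; rfl
  refine ⟨a⁻¹, i, fun v => by simp only [fx, eq_inv_smul_iff, Set.mem_insert_iff, Set.mem_singleton_iff, smul_eq_zero_iff_eq], ⟨σ, h6, rfl⟩, fun t ht => ?_⟩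
  simp only [fx] at ht
  have t1 := ht (a⁻¹ • om) (by simp)
  have t2 := ht (a⁻¹ • wv i) (by simp)
  rw [smul_smul, smul_smul] at t1 t2
  obtain ⟨s, rfl⟩ : ∃ s, t = a⁻¹ * s * a⁻¹⁻¹ := ⟨a * t * a⁻¹, by group⟩
  rw [show a * (a⁻¹ * s * a⁻¹⁻¹) * a⁻¹ = s by group] at t1 t2
  have s1 : s • om = om := by
    rcases t1 with k | k | k | k
    exacts [(om_ne_zero ((smul_eq_zero_iff_eq s).1 k)).elim, k, (smul_om_ne s (short_eW 0 i) k).elim, (n3 (by rw [q2_smul', q2_om]) k).elim]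
  have s2 : s • wv i = wv i := by
    rcases t2 with k | k | k | k
    exacts [(n1 ((smul_eq_zero_iff_eq s).1 k)).elim, (n2 (smul_left_cancel s (s1.trans k.symm))).elim, k,
      (n3 (by rw [q2_smul', q2_wv]) k).elim]
  obtain ⟨c, rfl⟩ := QuotientGroup.mk_surjective s
  obtain ⟨ρ, d, rfl⟩ := exists_mo (c := c) s1
  obtain ⟨k, rfl | rfl⟩ := eq_of_piQ_eW ((mo_wv ρ d i).symm.trans s2).symm
  exacts [⟨ρ, k, by rw [px_eq]⟩, ⟨ρ, k, by rw [px_eq, mo_Om]⟩]

theorem no_inv {g t : Co1} (hg : orderOf g = 23) (c : g * t = t * g) {n : ℕ} (h : t ^ 2 ^ n = 1) : t = 1 := by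
  obtain ⟨a, i, -, ⟨σ, h1, rfl⟩, h2⟩ := f23 hg
  obtain ⟨ρ, -, rfl⟩ := h2 t fun v e => by rw [smul_smul, c, mul_smul, e]
  rw [conj_mul, conj_mul, mul_left_inj, mul_right_inj, ← map_mul, ← map_mul] at c
  rw [conj_pow, conj_eq_one_iff, ← map_pow, map_eq_one_iff _ px_injective] at h
  simp [eq_one_of_comm (.inl h1) (px_injective c).symm h]

theorem no27 {g : Co1} (hg : orderOf g = 23) {R : Subgroup Co1} (h : ∀ t ∈ R, ∀ v : L2, g • v = v → g • t • v = t • v) :
    ¬ 27 ∣ Nat.card R := fun k => by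
  obtain ⟨a, i, -, -, h2⟩ := f23 hg
  have := k.trans (card_dvd_of_le (show R ≤ (stabilizer M24 i).map ((MulAut.conj a).toMonoidHom.comp px) from fun t ht =>
    let ⟨ρ, e, e'⟩ := h2 t (h t ht); ⟨ρ, e, e'.symm⟩))
  rw [card_map_of_injective ((MulAut.conj a).injective.comp px_injective), Mathieu.card_stabilizer_eq (a := 24) (b := 10200960)
    (by decide) (by
      rw [show orbit M24 i = Set.univ from Set.eq_univ_of_forall fun j => Mathieu.exists_map1 i j, Set.ncard_univ]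
      simp) Mathieu.card_M24] at this
  omega

theorem card_cases {g : Co1} (hg : orderOf g = 23) {R : Subgroup Co1} (hR : IsPGroup 2 R) (h : ∀ t ∈ R, g * t * g⁻¹ ∈ R) :
    R = ⊥ ∨ Nat.card R = 2 ^ 11 := by
  have := finite_co1
  have : Fact (Nat.Prime 23) := ⟨by norm_num⟩
  have k := modEq_cen (hg ▸ pow_orderOf_eq_one g) h
  rw [show R ⊓ centralizer {g} = ⊥ from eq_bot_iff.2 fun t ht => let ⟨n, e⟩ := hR ⟨t, ht.1⟩
    no_inv hg (mem_centralizer_singleton_iff.1 ht.2).symm (congrArg Subtype.val e), card_bot] at k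
  obtain ⟨n, e⟩ := hR.exists_card_eq
  have l := card_subgroup_dvd_card R
  rw [e, card_Co1] at l
  have : n ≤ 21 := by
    by_contra m
    exact absurd ((pow_dvd_pow 2 (show 22 ≤ n by omega)).trans l) (by norm_num)
  rw [← card_eq_one, e]
  rw [e] at k
  interval_cases n <;> simp_all [Nat.ModEq]

end Cfsg.Lib.Griess.MA
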