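import Cfsg.Agent.Lib.MA.B5

/-! # Pairs of elements acting in the same way on `Q` -/

set_option autoImplicit false

namespace Cfsg.Lib.Griess.MA

open Matrix Subgroup MulAction Cfsg.Lib.Leech Cfsg.Lib.Mon Cfsg.Spor Function

section
variable [AQ]

theorem exists_aut {c : Aut} (h : c ∈ CZ) : ∃ θ : MulAut Q, ∀ x, c * qV x * c⁻¹ = qV (θ x) :=
  ⟨(MonoidHom.ofInjective qV_injective).trans ((qV.range.normalizerMonoidHom ⟨c, mem_normalizer_iff.2 fun s =>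
    ⟨conj_range h, fun k => by simpa [mul_assoc] using conj_range (inv_mem h) k⟩⟩).trans (MonoidHom.ofInjective qV_injective).symm),
    fun x => by
      rw [MulEquiv.trans_apply, MulEquiv.trans_apply, MonoidHom.apply_ofInjective_symm]; rfl⟩

theorem eq_of_comm {g : Aut} (h : g ∈ CZ) (c : ∀ x, g * qV x = qV x * g) : g = 1 ∨ g = zA := by
  obtain ⟨y, rfl⟩ := (rhoC_eq_one (g := ⟨g, h⟩)).1 (co1_ext fun x => by
    rw [← piQ_conj ⟨g, h⟩ (mul_inv_eq_iff_eq_mul.2 (c x)), one_smul])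
  rcases (mem_center_Q (x := y)).1 (mem_center_iff.2 fun x => qV_injective (by rw [map_mul, map_mul, c])) with rfl | rfl
  exacts [.inl (map_one _), .inr rfl]

end

variable {I : AQ} [J : AQ]

local notation "G₀" => @Aut I
local notation "q₀" => @qV I
local notation "C₀" => @CZ I
local notation "ρ₀" => @rhoC I

variable (I) in
/-- the diagonal copy of `Q` -/
def qD : Q →* G₀ × Aut := (q₀).prod qV

variable (I) in
/-- the pairs acting in the same way on `Q` -/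
def DD : Subgroup (G₀ × Aut) := (C₀).prod CZ ⊓ normalizer ((qD I).range : Set (G₀ × Aut))

@[simp] theorem qD_fst (x : Q) : (qD I x).1 = q₀ x := rfl
@[simp] theorem qD_snd (x : Q) : (qD I x).2 = qV x := rfl

variable {p : @Aut I × Aut} {x y : Q}

theorem mem_DD : p ∈ DD I ↔ p.1 ∈ C₀ ∧ p.2 ∈ CZ ∧ ∀ x, ∃ y, p * qD I x * p⁻¹ = qD I y := by
  have : Finite Q := Nat.finite_of_card_ne_zero (by rw [card_Q]; norm_num)
  have : Finite ((qD I).range : Set (G₀ × Aut)) := Set.finite_range _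
  refine and_assoc.trans (and_congr_right fun _ => and_congr_right fun _ => ⟨fun h x => ((mem_normalizer_iff.1 h _).1 ⟨x, rfl⟩).imp
    fun _ => Eq.symm, fun h => mem_normalizer_fintype ?_⟩)
  rintro _ ⟨x, rfl⟩
  exact (h x).imp fun _ => Eq.symm

theorem DD_fst (h : p ∈ DD I) : p.1 ∈ C₀ := h.1.1
theorem DD_snd (h : p ∈ DD I) : p.2 ∈ CZ := h.1.2

theorem conj_D1 (h : p ∈ DD I) (e : p.1 * q₀ x * p.1⁻¹ = q₀ y) : p * qD I x * p⁻¹ = qD I y :=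
  let ⟨_, k⟩ := (mem_DD.1 h).2.2 x
  @qV_injective I _ _ ((congrArg Prod.fst k).symm.trans e) ▸ k

theorem conj_D2 (h : p ∈ DD I) (e : p.2 * qV x * p.2⁻¹ = qV y) : p * qD I x * p⁻¹ = qD I y :=
  let ⟨_, k⟩ := (mem_DD.1 h).2.2 x
  qV_injective ((congrArg Prod.snd k).symm.trans e) ▸ k

theorem qD_mem (x : Q) : qD I x ∈ DD I := mem_DD.2 ⟨@qV_mem I x, qV_mem x, fun y => ⟨x * y * x⁻¹, by simp⟩⟩

theorem mem_DD_of (a : p.1 ∈ C₀) (b : p.2 ∈ CZ) (h1 : ∀ d : Cd, ∃ y, p * qD I (qe 0 d (th d)) * p⁻¹ = qD I y)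
    (h2 : ∀ i, ∃ y, p * qD I (qe 0 0 (e1 i)) * p⁻¹ = qD I y) : p ∈ DD I := by
  let K := ((qD I).range.comap (MulAut.conj p).toMonoidHom).comap (qD I)
  have k {x} : (∃ y, p * qD I x * p⁻¹ = qD I y) ↔ x ∈ K := exists_congr fun _ => eq_comm
  refine mem_DD.2 ⟨a, b, fun x => k.2 ?_⟩
  obtain ⟨s, d, δ, rfl⟩ := qe_surj x
  have z : zQ ∈ K := k.1 ⟨zQ, Prod.ext (@conj_z I _ a) (conj_z b)⟩
  rw [show qe s d δ = zp s * qe 0 d (th d) * qe 0 0 (th d + δ) by rw [zp_mul_qe, qe_mul, ← add_assoc]; simp]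
  refine mul_mem (mul_mem ?_ (k.1 (h1 d))) (w_induction (P := fun δ => qe 0 0 δ ∈ K) (one_mem K) (fun i => k.1 (h2 i))
    (fun u v a b => by simpa [qe_mul] using mul_mem a b) _)
  rcases z2_cases s with rfl | rfl
  exacts [one_mem K, z]

/-- the map to `Co₁` -/
def rD : DD I →* Co1 := rhoC.comp (((MonoidHom.snd _ _).comp (DD I).subtype).codRestrict _ fun p => DD_snd p.2)

theorem rD_apply (h : p ∈ DD I) : rD ⟨p, h⟩ = rhoC ⟨p.2, DD_snd h⟩ := rfl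

theorem rD_eq (h : p ∈ DD I) : rD ⟨p, h⟩ = ρ₀ ⟨p.1, DD_fst h⟩ := co1_ext fun x =>
  let ⟨_, e⟩ := (mem_DD.1 h).2.2 x
  (piQ_conj ⟨_, DD_snd h⟩ (congrArg Prod.snd e)).symm.trans (@piQ_conj I ⟨_, DD_fst h⟩ _ _ (congrArg Prod.fst e))

theorem exists_pair {a : C₀} {g : CZ} (h : ρ₀ a = rhoC g) : ∃ y, ((a : G₀), qV y * g) ∈ DD I := by
  obtain ⟨θ, e⟩ := @exists_aut I _ a.2
  obtain ⟨η, f⟩ := exists_aut g.2
  obtain ⟨y, k⟩ := ES.exists_eq_conj isExtraspecial_Q (θ * η⁻¹ : MulAut Q).toMonoidHom fun x => mem_center_Q.2 (by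
    obtain ⟨x, rfl⟩ := η.surjective x
    simpa [mul_inv_eq_iff_eq_mul] using piQ_eq_iff.1 ((@piQ_conj I a _ _ (e x)).trans (h ▸ (piQ_conj g (f x)).symm)))
  refine ⟨y, mem_DD.2 ⟨a.2, mul_mem (qV_mem y) g.2, fun x => ⟨θ x, Prod.ext (e x) ?_⟩⟩⟩
  have := k (η x)
  simp only [MulEquiv.toMonoidHom_eq_coe, MonoidHom.coe_coe, MulAut.mul_apply, MulAut.inv_apply_self] at this
  simp only [this, Prod.snd_mul, Prod.snd_inv, qD_snd, map_mul, map_inv, ← f, _root_.mul_inv_rev, mul_assoc]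

theorem exists_snd {a : G₀} (h : a ∈ C₀) : ∃ g, (a, g) ∈ DD I :=
  let ⟨_, e⟩ := J.surj (ρ₀ ⟨a, h⟩)
  let ⟨_, k⟩ := exists_pair e.symm
  ⟨_, k⟩

theorem exists_fst {g : Aut} (h : g ∈ CZ) : ∃ a, (a, g) ∈ DD I :=
  let ⟨a, e⟩ := I.surj (rhoC ⟨g, h⟩)
  let ⟨y, k⟩ := exists_pair e
  ⟨(q₀ y)⁻¹ * a, by convert mul_mem (inv_mem (qD_mem y)) k using 1; ext <;> simp⟩

theorem rD_surj : Surjective (rD (I := I)) := fun c =>
  let ⟨g, e⟩ := J.surj c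
  let ⟨_, k⟩ := exists_fst (I := I) g.2
  ⟨⟨_, k⟩, e⟩

theorem z1_mem : (q₀ zQ, (1 : Aut)) ∈ DD I :=
  mem_DD.2 ⟨@qV_mem I _, one_mem _, fun x => ⟨x, Prod.ext (mul_inv_eq_iff_eq_mul.2 (@comm_z I _ (@qV_mem I x)).symm) (by simp)⟩⟩

theorem z1_comm (h : p ∈ DD I) : p * (q₀ zQ, 1) = (q₀ zQ, 1) * p := Prod.ext (@comm_z I _ (DD_fst h)) (by simp)

theorem z1_sq : (q₀ zQ, (1 : Aut)) * (q₀ zQ, 1) = 1 := Prod.ext (@zA_mul_self I) (mul_one _)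

theorem eq_of_snd (h : p ∈ DD I) (e : p.2 = 1) : p = 1 ∨ p = (q₀ zQ, 1) :=
  (@eq_of_comm I _ (DD_fst h) fun x => mul_inv_eq_iff_eq_mul.1 (congrArg Prod.fst (conj_D2 h (y := x) (by simp [e])))).imp
    (Prod.ext · e) (Prod.ext · e)

theorem eq_of_fst (h : p ∈ DD I) (e : p.1 = 1) : p = 1 ∨ p = (q₀ zQ, 1) * qD I zQ :=
  (eq_of_comm (DD_snd h) fun x => mul_inv_eq_iff_eq_mul.1 (congrArg Prod.snd (conj_D1 h (y := x) (by simp [e])))).imp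
    (Prod.ext e ·) fun k => Prod.ext (e.trans (@zA_mul_self I).symm) (k.trans (one_mul _).symm)

theorem ker_rD (h : p ∈ DD I) (e : rD ⟨p, h⟩ = 1) : ∃ x, p = qD I x ∨ p = (q₀ zQ, 1) * qD I x :=
  let ⟨x, k⟩ := rhoC_eq_one.1 e
  ⟨x, (eq_of_snd (mul_mem h (inv_mem (qD_mem x))) (mul_inv_eq_one.2 k.symm)).imp mul_inv_eq_one.1 mul_inv_eq_iff_eq_mul.1⟩

end Cfsg.Lib.Griess.MA
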