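import Cfsg.Agent.Lib.MA.D1
import Cfsg.Agent.Lib.Bab.Lee

/-! # The transfer argument: the subgroups `C` are isomorphic compatibly with the triality elements -/

set_option autoImplicit false

namespace Cfsg.Lib.Griess.MA

open Matrix Subgroup MulAction Cfsg.Lib.Leech Cfsg.Lib.Mon Cfsg.Spor Function
open scoped commutatorElement

theorem mo_mem {K : Subgroup Co1} (h : ∀ σ ρ c d, ⁅(mo σ c : Co1), (mo ρ d : Co1)⁆ ∈ K) (σ : M24) (c : Cd) : (mo σ c : Co1) ∈ K := by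
  have := Cfsg.Agent.S0365.result
  have a (σ : M24) : (mo σ 0 : Co1) ∈ K := px_eq σ ▸ (show commutator M24 ≤ K.comap px from commutator_le.2 fun σ _ ρ _ => by
    rw [mem_comap, map_commutatorElement, px_eq, px_eq]; exact h _ _ _ _)
      ((Bab.perfect_of_simple (by rw [Mathieu.card_M24]; norm_num)).ge (mem_top σ))
  have m (σ ρ c d) : (mo (σ * ρ) (c + sC σ d) : Co1) = mo σ c * mo ρ d := by rw [← mo_mul]; rfl
  have k (σ c) : (mo 1 (sC σ c) : Co1) = mo σ 0 * mo 1 c * (mo σ 0 : Co1)⁻¹ := by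
    rw [eq_mul_inv_iff_mul_eq, ← m, ← m]; simp
  obtain ⟨O, hO, -⟩ := MT.exists_oct
  obtain ⟨ρ, e⟩ := not_forall.1 (mt (fix_pair (i := none) (j := none) (c := O)) (by
    rintro (rfl | rfl) <;> simp [wt_zero, wt_one] at hO))
  push Not at e
  have b := code_family (T := fun c => (mo 1 c : Co1) ∈ K) (by rw [mo_one]; exact one_mem K)
    (fun u v a b => by simpa using m 1 1 u v ▸ mul_mem a b) (fun σ u b => k σ u ▸ mul_mem (mul_mem (a σ) b) (inv_mem (a σ)))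
    (d := sC ρ O + O) (by
      have := h ρ 1 0 O
      rw [commutatorElement_def, ← k, inv_eq_of_mul_eq_one_right (a := (mo 1 O : Co1)) (b := mo 1 O) (by
        rw [← m]; simp [mo_one]), ← m] at this
      simpa using this) (fun l => e.2.2.1 (by rw [← add_add_cd (sC ρ O) O, l, zero_add]))
      (fun l => e.2.2.2 (by rw [← add_add_cd (sC ρ O) O, l, add_comm])) c
  simpa [← m] using mul_mem b (a σ)

variable {I : AQ} [J : AQ]

local notation "G₀" => @Aut I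
local notation "q₀" => @qV I
local notation "ẑ" => ((@qV I zQ, 1) : @Aut I × Aut)
local notation "b̂" => qD I (qe 0 0 (e1 none))

section
variable {A : Type*} [CommGroup A] (V : DD I →* A)

theorem V_qD (x : Q) : V ⟨_, qD_mem x⟩ = 1 := by
  let W := V.comp ((qD I).codRestrict _ qD_mem)
  have z : W zQ = 1 := by
    have := congrArg W (conj_eq (qe 0 0 (e1 none)) aOm)
    simp only [map_mul, map_inv, mul_inv_cancel_comm] at this
    simpa [zp_one] using this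
  have k (c : Co1) {x y} (h : piQ y = c • piQ x) : W y = W x := by
    obtain ⟨⟨p, hp⟩, rfl⟩ := rD_surj (I := I) c
    obtain ⟨u, e⟩ := (mem_DD.1 hp).2.2 x
    have : W u = W x := (congrArg V (show _ = (⟨p, hp⟩ : DD I) * ⟨_, qD_mem x⟩ * ⟨p, hp⟩⁻¹ from Subtype.ext e.symm)).trans (by
      rw [map_mul, map_mul, map_inv, mul_inv_cancel_comm]; rfl)
    rcases piQ_eq_iff.1 (h.trans (piQ_conj ⟨_, DD_snd hp⟩ (congrArg Prod.snd e)).symm) with rfl | rfl
    exacts [this, by rw [map_mul, z, one_mul, this]]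
  have w : W aOm = 1 := by
    obtain ⟨c, hc⟩ := not_forall.1 (mt (mem_code_of_dot (u := e1 none + e1 (some 0))) fun h =>
      absurd (congrFun (eq_zero_of_wt_lt h (by rw [wt_pair (by decide)]; decide)) none) (by decide))
    have := k (mo 1 c) ((mo_even 1 c 0 0 (pair_dot_one none (some 0))).symm.trans (mk_smul _ _).symm)
    rwa [show sW 1 (e1 none + e1 (some 0)) = e1 none + e1 (some 0) from rfl, (z2_cases _).resolve_left hc, zero_add, qe_Om, zero_smul, map_mul, mul_eq_right, ← aOm_eq] at this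
  obtain ⟨y, a, b⟩ := (eq_top_of_nm (A := ⟨⟨⟨{v | ∃ y, W y = 1 ∧ piQ y = v}, by
    rintro _ _ ⟨u, a, rfl⟩ ⟨v, b, rfl⟩; exact ⟨u * v, by rw [map_mul, a, b, one_mul], piQ_mul _ _⟩⟩, 1, map_one _, piQ_one⟩, by
    rintro _ ⟨u, a, rfl⟩; exact ⟨u, a, (l2_neg _).symm⟩⟩) fun v h => by
      obtain ⟨y, e⟩ := piQ_surjective v
      obtain ⟨g, l⟩ := exists_smul_mk ((sqNorm_e8 none).trans h.symm) (.inr (.inr (sqNorm_e8 none)))
      exact ⟨y, (k g (by rw [e, ← l, ← om_eq])).trans w, e⟩).ge (AddSubgroup.mem_top (piQ x))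
  exact (k 1 (by rw [one_smul, b])).trans a

end

variable (S : @MN I) [T : MN]

/-- the pair of triality elements -/
def tD : G₀ × Aut := (@tau I S, tau)

/-- the part of the group of pairs normalized by the triality element -/
def NH : Subgroup (G₀ × Aut) := DD I ⊓ (DD I).comap (MulAut.conj (tD S)).toMonoidHom ⊓ (DD I).comap (MulAut.conj (tD S)⁻¹).toMonoidHom

theorem tD_mul : tD S * tD S = (tD S)⁻¹ := Prod.ext (@tau_mul_tau I S) tau_mul_tau
theorem tD_pow : tD S ^ 3 = 1 := Prod.ext (@tau_pow_three I S) tau_pow_three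
theorem b_tD : b̂ * tD S * b̂ = (tD S)⁻¹ := Prod.ext (@bq_e1_tau I S none) (bq_e1_tau none)
omit T in
theorem b_sq : b̂ * b̂ = 1 := Prod.ext (@bq_mul_self I _) (bq_mul_self _)

variable {S} {p : @Aut I × Aut} {x y : Q}

theorem conj_tD (h : tau * qV x * tau⁻¹ = qV y) : tD S * qD I x * (tD S)⁻¹ = qD I y := by
  obtain ⟨s, n, δ, e, rfl⟩ := eq_A h
  rw [qV_injective (h.symm.trans (tau_conj_A s n e))]
  exact Prod.ext (@tau_conj_A I S s n _ e) (tau_conj_A s n e)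

theorem mem_NH : p ∈ NH S ↔ p ∈ DD I ∧ tD S * p * (tD S)⁻¹ ∈ DD I ∧ (tD S)⁻¹ * p * (tD S)⁻¹⁻¹ ∈ DD I := and_assoc

theorem NH_le : NH S ≤ DD I := fun _ h => h.1.1

theorem NH_t (h : p ∈ NH S) : tD S * p * (tD S)⁻¹ ∈ NH S := mem_NH.2 ⟨h.1.2, by
  simpa only [← tD_mul, _root_.mul_inv_rev, mul_assoc] using (mem_NH.1 h).2.2, by simpa [mul_assoc] using NH_le h⟩

theorem NH_t' (h : p ∈ NH S) : (tD S)⁻¹ * p * tD S ∈ NH S := by
  have := NH_t (NH_t h)
  rwa [← mul_assoc, ← mul_assoc, mul_assoc _ _ (tD S)⁻¹, ← _root_.mul_inv_rev, tD_mul, inv_inv] at this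

theorem NH_b (h : p ∈ NH S) : b̂ * p * b̂ ∈ NH S := by
  have m {u} (h : u ∈ DD I) : b̂ * u * b̂ ∈ DD I := mul_mem (mul_mem (qD_mem _) h) (qD_mem _)
  have e : b̂ * (tD S)⁻¹ = tD S * b̂ := by rw [← b_tD, ← mul_assoc, ← mul_assoc, b_sq, one_mul]
  have f : b̂ * tD S = (tD S)⁻¹ * b̂ := by rw [← b_tD, mul_assoc _ b̂, b_sq, mul_one]
  refine mem_NH.2 ⟨m (NH_le h), ?_, ?_⟩
  · convert m (mem_NH.1 h).2.2 using 1
    simp only [inv_inv, mul_assoc, e, ← mul_assoc b̂ (tD S)⁻¹]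
  · convert m (mem_NH.1 h).2.1 using 1
    simp only [inv_inv, mul_assoc, f, ← mul_assoc b̂ (tD S)]

theorem NH_NV (h : p ∈ NH S) : p.2 ∈ NV := mem_NV.2 ⟨DD_snd (NH_le h), by
  have := comm_z (DD_snd (NH_le (NH_t' h)))
  rw [← mul_left_inj tau⁻¹, ← mul_right_inj tau] at this
  simpa [← tau_conj_zQ, tD, mul_assoc] using this⟩

theorem z1_not : ẑ ∉ NH S := fun h => (eq_of_snd (NH_le (NH_t h)) (by simp)).elim
  (fun k => zQ_ne_one (@qV_injective I _ _ (by simpa using congrArg Prod.fst k))) fun k =>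
    zero_ne_one (congrArg Q.s (@qV_injective I _ _ ((@tau_conj_zQ I S).symm.trans (congrArg Prod.fst k))))

theorem NH_of_comm (h : p ∈ DD I) (c : tD S * p = p * tD S) : p ∈ NH S :=
  mem_NH.2 ⟨h, by rwa [c, mul_inv_cancel_right], by rwa [inv_inv, mul_assoc, ← c, inv_mul_cancel_left]⟩

theorem b_NH {δ : W} (h : δ ⬝ᵥ 1 = 0) : qD I (qe 0 0 δ) ∈ NH S :=
  NH_of_comm (qD_mem _) (Prod.ext (@tau_comm_bq I S _ h) (tau_comm_bq h))

theorem x_NH (s : ZMod 2) (e : Cd) : qD I (qe s e (th e)) ∈ NH S := by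
  have : tD S * qD I (qe s e (th e)) * (tD S)⁻¹ ∈ DD I := mem_DD_of (@yq_mem I S s e).1 (yq_mem s e).1
    (fun d => ⟨_ * _, by
      rw [map_mul, mul_inv_eq_iff_eq_mul, mul_assoc _ (qD I _) (_ * _⁻¹)]
      exact Prod.ext (@yq_mul_xq I S s 0 e d) (yq_mul_xq s 0 e d)⟩) fun i => ⟨_ * _ * _ * qe 0 0 (e1 i), by
      rw [map_mul, map_mul _ _ (qe _ _ 0), map_mul _ _ (qe _ _ 0)]
      exact Prod.ext (@yq_conj_bq' I S e (@xq_tau_cube I S · e) s i) (yq_conj_bq' (xq_tau_cube · e) s i)⟩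
  refine mem_NH.2 ⟨qD_mem _, this, ?_⟩
  convert inv_mem (mul_mem (qD_mem (qe s e (th e))) this) using 1
  refine .trans ?_ (eq_inv_of_mul_eq_one_right (b := tD S * (tD S * qD I (qe s e (th e)) * (tD S)⁻¹) * (tD S)⁻¹) (Prod.ext (@xyz I S s e) (xyz s e)))
  rw [← mul_assoc, ← mul_assoc, tD_mul, mul_assoc _ (tD S)⁻¹, ← _root_.mul_inv_rev, tD_mul]

theorem q_NH (h : qV x ∈ NV) : qD I x ∈ NH S := by
  obtain ⟨s, d, γ, a, b⟩ := exists_xq_bq h
  rw [xq, bq, ← map_mul] at b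
  rw [qV_injective b, map_mul]
  exact mul_mem (x_NH s d) (b_NH a)

theorem exists_NH (σ : M24) (c : Cd) : ∃ p ∈ NH S, Ind p.2 σ c := by
  obtain ⟨y, h⟩ := exists_pair (a := ⟨_, (@ind_xp I S σ).1⟩) (g := ⟨_, (ind_xp σ).1⟩) ((@ind_xp I S σ).2.trans (ind_xp σ).2.symm)
  have k (u v) (e : @xp I S σ * q₀ u * (@xp I S σ)⁻¹ = q₀ v) (f : xp σ * qV u * (xp σ)⁻¹ = qV v) : pr y.d v.c + pr v.d y.c = 0 := by
    have := congrArg Prod.snd (conj_D1 h e)
    refine pr_eq_of_comm (mul_inv_eq_iff_eq_mul.1 ?_)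
    simpa only [Prod.snd_mul, Prod.snd_inv, qD_snd, ← f, _root_.mul_inv_rev, mul_assoc] using this
  obtain ⟨s, d, δ, rfl⟩ := qe_surj y
  obtain rfl : d = 0 := eq_zero_of_pr_left fun c => by
    obtain ⟨γ, rfl⟩ := cs_surj c
    simpa [← sW_mul', show sW 1 γ = γ from rfl] using k _ _ (@xp_bq I S σ (sW σ⁻¹ γ)) (xp_bq σ _)
  have e : δ ⬝ᵥ 1 = 0 := by
    simpa [dotProduct_comm] using k aOm aOm (mul_inv_eq_iff_eq_mul.2 (@mem_NV I _ |>.1 (@xp_mem I S σ)).2)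
      (mul_inv_eq_iff_eq_mul.2 (mem_NV.1 (xp_mem σ)).2)
  have m : (@xp I S σ, bq δ * xp σ) ∈ DD I := by
    rcases z2_cases s with rfl | rfl
    · exact h
    · convert mul_mem (mul_mem z1_mem (qD_mem zQ)) h using 1
      exact Prod.ext (by simp [@zA_mul_self I]) (by simp [bq, ← mul_assoc, ← map_mul, ← zp_one, zp_mul_qe])
  refine ⟨_, mul_mem (NH_t (x_NH 0 c)) (NH_of_comm m (Prod.ext (@tau_comm_xp I S σ) ?_)), ?_⟩
  · exact ((Commute.mul_right (tau_comm_bq e) (tau_comm_xp σ)) :)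
  · have := (ind_yq 0 c).mul ((ind_qV (qe 0 0 δ)).mul (ind_xp σ))
    simp only [one_mul, sC_zero, add_zero] at this
    exact this

theorem NH_or (h : p ∈ DD I) (k : p.2 ∈ NV) : p ∈ NH S ∨ ẑ * p ∈ NH S := by
  obtain ⟨σ, c, a⟩ := exists_ind_NV k
  obtain ⟨n, b, d⟩ := exists_NH (S := S) σ c
  obtain ⟨x, e⟩ := ker_rD (mul_mem h (inv_mem (NH_le b))) (show rD (⟨p, h⟩ * ⟨n, NH_le b⟩⁻¹) = 1 by
    rw [map_mul, map_inv, rD_apply, rD_apply, a.2, d.2, mul_inv_cancel])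
  have m : qD I x ∈ NH S := q_NH (by
    have : (p * n⁻¹).2 ∈ NV := mul_mem k (inv_mem (NH_NV b))
    rcases e with e | e <;> simpa [e] using this)
  refine e.imp (fun e => ?_) fun e => ?_
  · rw [mul_inv_eq_iff_eq_mul.1 e]; exact mul_mem m b
  · rw [mul_inv_eq_iff_eq_mul.1 e, ← mul_assoc, ← mul_assoc, z1_sq, one_mul]; exact mul_mem m b

theorem V_NH {A : Type*} [CommGroup A] (V : DD I →* A) (h : p ∈ NH S) : V ⟨p, NH_le h⟩ = 1 := by
  obtain ⟨σ, c, a⟩ := exists_ind_NV (NH_NV h)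
  obtain ⟨k, ⟨k1, k2⟩, k3⟩ := mo_mem (K := ((NH S).subgroupOf (DD I) ⊓ V.ker).map rD) (fun σ ρ c d => by
    obtain ⟨u, a, b⟩ := exists_NH (S := S) σ c
    obtain ⟨v, a', b'⟩ := exists_NH (S := S) ρ d
    exact ⟨⁅(⟨u, NH_le a⟩ : DD I), ⟨v, NH_le a'⟩⁆, mem_inf.2 ⟨(NH S).mul_mem (mul_mem (mul_mem a a') (inv_mem a)) (inv_mem a'), by
      rw [MonoidHom.mem_ker, map_commutatorElement, commutatorElement_eq_one_iff_mul_comm, mul_comm]⟩, by
      rw [map_commutatorElement, rD_apply, rD_apply, b.2, b'.2]⟩) σ c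
  have m : p * (k : G₀ × Aut)⁻¹ ∈ NH S := mul_mem h (inv_mem k1)
  obtain ⟨x, e | e⟩ := ker_rD (NH_le m) (show rD (⟨p, NH_le h⟩ * k⁻¹) = 1 by rw [map_mul, map_inv, k3, rD_apply, a.2, mul_inv_cancel])
  · rw [show (⟨p, NH_le h⟩ : DD I) = ⟨_, qD_mem x⟩ * k from Subtype.ext (mul_inv_eq_iff_eq_mul.1 e), map_mul, V_qD, k2, mul_one]
  · exact (z1_not ((mul_mem_cancel_right (q_NH (by simpa [e] using NH_NV m))).1 (e ▸ m))).elim

variable (S) in
include S T in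
theorem exists_V : ∃ V : DD I →* ℤˣ, V ⟨ẑ, z1_mem⟩ = -1 := by
  classical
  have r {p} (h : p ∈ NH S) : p * b̂ * b̂⁻¹ ∈ NH S := by rwa [mul_inv_cancel_right]
  have bi : b̂⁻¹ = b̂ := inv_eq_of_mul_eq_one_right b_sq
  let K : Subgroup (G₀ × Aut) := ⟨⟨⟨{p | p ∈ NH S ∨ b̂ * p ∈ NH S}, by
    rintro u v (a | a) (b | b)
    · exact .inl (mul_mem a b)
    · exact .inr (by simpa [mul_assoc, ← mul_assoc b̂ b̂, b_sq] using mul_mem (NH_b a) b)
    · exact .inr (mul_assoc _ u v ▸ mul_mem a b)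
    · exact .inl (by simpa [mul_assoc, ← mul_assoc b̂ b̂, b_sq] using mul_mem (NH_b a) b)⟩, .inl (one_mem _)⟩, by
    rintro u (a | a)
    · exact .inl (inv_mem a)
    · exact .inr (by simpa [mul_assoc, bi, b_sq] using NH_b (inv_mem a))⟩
  let D1 := (stabilizer Co1 om).comap (rD (I := I))
  have i : D1.index = 8292375 := (index_comap_of_surjective _ rD_surj).trans (om_eq ▸ CoT.index_stab)
  have : D1.FiniteIndex := ⟨by rw [i]; decide⟩
  have z : ẑ ∉ K := fun h => h.elim z1_not fun h => absurd (qV_mem_NV.1 (by simpa using NH_NV h : qV (qe 0 0 (e1 none)) ∈ NV)) (by simp)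
  have z1 : (⟨ẑ, z1_mem⟩ : DD I) ∈ D1 := show rhoC 1 • om = om by rw [map_one, one_smul]
  have j : (K.comap ((DD I).subtype.comp D1.subtype)).index = 2 := index_eq_two_iff'.2 ⟨⟨_, z1⟩, fun u => by
    have : ẑ * u.1.1 ∈ K ∨ u.1.1 ∈ K := (mem_NV_of (g := ⟨_, DD_snd u.1.2⟩) u.2).elim
      (fun k => (NH_or u.1.2 k).symm.imp .inl .inl) fun k => (NH_or (mul_mem (qD_mem _) u.1.2) k).symm.imp (fun l => .inr (by
        rwa [← mul_assoc, z1_comm (qD_mem _), mul_assoc])) .inr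
    exact (xor_iff_or_and_not_and _ _).2 ⟨this, fun l => z ((mul_mem_cancel_right l.2).1 l.1)⟩⟩
  let φ : D1 →* ℤˣ := .mk' (fun u => if u ∈ K.comap ((DD I).subtype.comp D1.subtype) then 1 else -1) fun u v => by
    simp only [mul_mem_iff_of_index_two j]
    split_ifs <;> simp_all
  refine ⟨φ.transfer, (φ.transfer_eq_pow _ fun k g _ => ?_).trans ?_⟩
  · rw [mul_assoc, (Commute.pow_left (show Commute _ g from Subtype.ext (z1_comm g.2).symm) k).eq, inv_mul_cancel_left]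
  · rw [show (⟨_, _⟩ : D1) = ⟨_, z1⟩ ^ D1.index from rfl, map_pow, i, show φ ⟨_, z1⟩ = -1 from if_neg z]
    exact Odd.neg_one_pow (by decide)

end Cfsg.Lib.Griess.MA
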