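import Cfsg.Agent.Lib.MA.D2
import Cfsg.Agent.Lib.M3.MCDef

/-! # The graph of the isomorphism and the second triangle -/

set_option autoImplicit false

namespace Cfsg.Lib.Griess.MA

open Matrix Subgroup MulAction Cfsg.Lib.Leech Cfsg.Lib.Mon Cfsg.Spor Function

theorem fix3 {G : Type*} [Group G] {a b c l v w : G} (h1 : l * a * l⁻¹ = b) (h2 : l * b * l⁻¹ = c) (h3 : l * c * l⁻¹ = a)
    (n : a ≠ b) (c1 : a * b = b * a) (hv : v = 1 ∨ v = a ∨ v = b ∨ v = a * b) (hw : w = v ∨ w = v * c) (e : l * w * l⁻¹ = w) :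
    w = 1 ∨ w = a * b * c := by
  have n2 : b ≠ c := by rwa [← h2, ← h1, Ne, mul_left_inj, mul_right_inj, h1]
  have n3 : c ≠ a := by rwa [← h3, ← h2, Ne, mul_left_inj, mul_right_inj, h2]
  have c2 : b * c = c * b := by rw [← h2, ← h1, _root_.conj_mul, _root_.conj_mul, h1, c1]
  have m (x y) : l * (x * y) * l⁻¹ = l * x * l⁻¹ * (l * y * l⁻¹) := _root_.conj_mul.symm
  rcases hv with rfl | rfl | rfl | rfl <;> rcases hw with rfl | rfl <;> try simp only [m, h1, h2, h3, one_mul] at e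
  exacts [.inl rfl, (n3 e.symm).elim, (n e.symm).elim, (n2 (mul_left_cancel (c1.trans e))).elim, (n2 e.symm).elim,
    (n (mul_left_cancel (e.trans c2))).elim, (n3 (mul_left_cancel (e.trans c1))).elim, .inr rfl]

theorem eq_of_pr {a b : Cs} (h : ∀ d, pr d a = 0 → pr d b = 0) : b = 0 ∨ b = a := by
  by_cases k : b = 0
  · exact .inl k
  obtain ⟨e, he⟩ := not_forall.1 (mt eq_zero_of_pr_right k)
  suffices ∀ d, pr d (b + a) = 0 from .inr (by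
    rw [← add_zero b, ← eq_zero_of_pr_right this, ← add_assoc, cs_add_self, zero_add])
  intro d
  have := h (d + e)
  have := h d
  have := h e
  rw [map_add]
  rw [pr_add, pr_add] at *
  revert he
  generalize pr d a = x, pr d b = y, pr e a = u, pr e b = v at *
  revert x y u v
  decide

theorem cen_V3 [AQ] {w : Aut} (hw : w ∈ CZ) {s n : ZMod 2} {δ : W} (e : δ ⬝ᵥ 1 = 0)
    (h : ∀ v, qV v ∈ NV → qV v * qV (qe s (n • Om) δ) = qV (qe s (n • Om) δ) * qV v → w * qV v = qV v * w) :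
    ∃ v, (v = 1 ∨ v = zA ∨ v = wA ∨ v = zA * wA) ∧ (w = v ∨ w = v * qV (qe s (n • Om) δ)) := by
  have k (t m : ZMod 2) (γ : W) (f : γ ⬝ᵥ 1 = 0) : w * qV (qe t (m • Om) γ) = qV (qe t (m • Om) γ) * w :=
    h _ (qV_mem_NV.2 f) (qV_comm (by simp [dotProduct_comm 1, e, f]))
  obtain ⟨σ, c, a⟩ := exists_ind_NV (mem_NV.2 ⟨hw, by rw [wA, aOm_eq]; exact k 0 1 0 (by simp)⟩)
  replace a := a.of_dp (ρ := 1) fun t m γ f => ⟨t, m, mul_inv_eq_iff_eq_mul.2 (k t m γ f)⟩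
  have o {m : ZMod 2} (h : (0 : ZMod 2) • Om = m • Om) : m = 0 := by simpa using congrArg (fun d : Cd => (d : W) none) h.symm
  have b := eq_Om (d := c) fun γ f => (zero_add _).symm.trans
    (o (dc_of ((a.piQ (mul_inv_eq_iff_eq_mul.2 (k 0 0 γ f))).trans (mo_even 1 c 0 0 f))).1)
  obtain ⟨v, rfl⟩ := ind_one_iff.1 (show Ind w 1 0 by
    rcases z2_cases ((c : W) none) with l | l <;> rw [b, l] at a
    exacts [by simpa using a, by simpa using a.add_Om])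
  have d := eq_Om (d := v.d) fun γ f => by simpa using pr_eq_of_comm (k 0 0 γ f)
  have V (p : Q) (m : ZMod 2) (a : p.d = m • Om) (b : p.c = 0) : qV p = 1 ∨ qV p = zA ∨ qV p = wA ∨ qV p = zA * wA := by
    rw [show p = qe p.s (m • Om) 0 from Q.ext rfl a b, ← map_mul, zQ_mul_aOm, zA, wA, zQ_eq, aOm_eq]
    rcases z2_cases p.s with l | l <;> rcases z2_cases m with rfl | rfl <;> rw [l]
    exacts [.inl (by rw [zero_smul]; exact bq_zero), .inr (.inr (.inl rfl)), .inr (.inl rfl), .inr (.inr (.inr rfl))]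
  rcases eq_of_pr (a := cs δ) (b := v.c) fun p f => by
    have := pr_eq_of_comm (h _ (xq_mem 0 p) (qV_comm (by simpa [dotProduct_comm 1, th_dot_one] using f)))
    rw [d] at this
    simpa [dotProduct_comm 1, th_dot_one] using this with l | l
  · exact ⟨_, V v _ d l, .inl rfl⟩
  · exact ⟨_, V (v * (qe s (n • Om) δ)⁻¹) ((v.d : W) none + n) (by rw [add_smul, ← d]; simp) (by simp [l]), .inr (by simp)⟩

variable {I : AQ} [J : AQ] {S : @MN I} [T : MN]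

local notation "G₀" => @Aut I
local notation "q₀" => @qV I
local notation "ẑ" => ((@qV I zQ, 1) : @Aut I × Aut)

variable (S) in
/-- the graph of an isomorphism between the two subgroups `C` -/
structure HH (H : Subgroup (G₀ × Aut)) : Prop where
  le : H ≤ DD I
  q : ∀ x, qD I x ∈ H
  nh : NH S ≤ H
  z : ẑ ∉ H
  or : ∀ p ∈ DD I, p ∈ H ∨ ẑ * p ∈ H

variable (S) in
theorem exists_HH : ∃ H, HH S H := by
  obtain ⟨V, e⟩ := exists_V S
  refine ⟨V.ker.map (DD I).subtype, map_subtype_le _, fun x => ⟨_, V_qD V x, rfl⟩, fun p h => ⟨_, V_NH V h, rfl⟩, ?_, fun p h =>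
    (Int.units_eq_one_or (V ⟨p, h⟩)).imp (fun k => ⟨_, k, rfl⟩) fun k => ⟨⟨_, z1_mem⟩ * ⟨p, h⟩, ?_, rfl⟩⟩
  · rintro ⟨p, a, b⟩
    exact absurd (e.symm.trans ((congrArg V (Subtype.ext b.symm)).trans a)) (by decide)
  · rw [SetLike.mem_coe, MonoidHom.mem_ker, map_mul, e, k]; rfl

variable {H : Subgroup (@Aut I × Aut)} {p c : @Aut I × Aut} {x y : Q}

theorem conj_tc (hc : c ∈ DD I) (h : (tD S * c).2 * qV x * (tD S * c).2⁻¹ = qV y) :
    tD S * c * qD I x * (tD S * c)⁻¹ = qD I y := by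
  obtain ⟨v, e⟩ := (mem_DD.1 hc).2.2 x
  rw [← conj_tD (S := S) (x := v) (y := y) (by rw [← h, ← qD_snd (I := I) v, ← e]; simp [tD, mul_assoc]), ← e]; group

namespace HH

variable (h : HH S H)
include h

theorem fst_inj (a : p ∈ H) (e : p.1 = 1) : p = 1 :=
  (eq_of_fst (h.le a) e).resolve_right fun k => h.z ((mul_mem_cancel_right (h.q _)).1 (k ▸ a))

theorem sur1 {a : G₀} (m : a ∈ @CZ I) : ∃ p ∈ H, p.1 = a :=
  let ⟨_, k⟩ := exists_snd m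
  (h.or _ k).elim (fun l => ⟨_, l, rfl⟩) fun l => ⟨_, mul_mem (h.q zQ) l, by simp [← mul_assoc, @zA_mul_self I]⟩

theorem sur2 {g : Aut} (m : g ∈ CZ) : ∃ p ∈ H, p.2 = g :=
  let ⟨_, k⟩ := exists_fst m
  (h.or _ k).elim (fun l => ⟨_, l, rfl⟩) fun l => ⟨_, l, one_mul _⟩

theorem mem_NH (a : p ∈ H) (e : p.2 ∈ NV) : p ∈ NH S :=
  (NH_or (h.le a) e).resolve_right fun k => h.z ((mul_mem_cancel_right a).1 (h.nh k))

theorem tri (hc : c ∈ H) {u : Q} (h2 : (tD S * c).2 * wA * (tD S * c).2⁻¹ = qV u) (h3 : (tD S * c).2 * qV u * (tD S * c).2⁻¹ = zA)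
    (m1 : ∀ g : G₀, g * q₀ zQ = q₀ zQ * g → g ∈ @CZ I) (m2 : (tD S * c).2 ^ 3 ∈ CZ) :
    M3.U0 (piQ u) ∧ ∃ n : G₀ × Aut, n.1 = 1 ∧ (n.2 = 1 ∨ n.2 = zA * wA * qV u) ∧ n⁻¹ * (tD S * c) ^ 3 ∈ H := by
  have h1 : (tD S * c).2 * zA * (tD S * c).2⁻¹ = wA := .trans (by
    conv_rhs => rw [← conj_z (DD_snd (h.le hc))]
    simp [tD, mul_assoc]) tau_conj_zQ
  have r1 := conj_tc (h.le hc) h1
  have r2 := conj_tc (h.le hc) h2
  have r3 := conj_tc (h.le hc) h3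
  obtain ⟨s, n, δ, e, rfl⟩ : ∃ (s n : ZMod 2) (δ : W), δ ⬝ᵥ 1 = 0 ∧ u = qe s (n • Om) δ := by
    obtain ⟨v, e⟩ := exists_conj (DD_snd (h.le hc)) aOm
    have f : tau * qV v * tau⁻¹ = qV u := by rw [← h2, ← e]; simp [tD, mul_assoc]
    obtain ⟨s, n, δ, a, rfl⟩ := eq_A f
    exact ⟨_, _, _, a, qV_injective (f.symm.trans (tau_conj_A s n a))⟩
  refine ⟨M3.u0_piQ.2 ⟨by rcases z2_cases n with rfl | rfl <;> simp, by simpa [dotProduct_comm] using e⟩, ?_⟩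
  generalize hu : qe s (n • Om) δ = u at *
  have zc {g} (a : g ∈ H) : Commute g (qD I zQ) := Prod.ext (@comm_z I _ (DD_fst (h.le a))) (comm_z (DD_snd (h.le a)))
  let K := H ⊓ centralizer {qD I aOm} ⊓ centralizer {qD I u}
  have mK {g} : g ∈ K ↔ g ∈ H ∧ Commute g (qD I aOm) ∧ Commute g (qD I u) := by
    simp only [K, mem_inf, mem_centralizer_singleton_iff, and_assoc]; rfl
  have key {g} (a : g ∈ K) : tD S * c * g * (tD S * c)⁻¹ ∈ K := by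
    obtain ⟨a, b, d⟩ := mK.1 a
    have m := mul_mem (mul_mem hc a) (inv_mem hc)
    refine mK.2 ⟨?_, r1 ▸ (zc a).conj _, r2 ▸ b.conj _⟩
    have f : c * qD I u * c⁻¹ = qD I zQ * qD I aOm := by
      rw [← map_mul, ← mul_left_inj (tD S)⁻¹, ← mul_right_inj (tD S), ← mul_assoc (tD S) (qD I _), conj_tD tau_conj_zaOm, ← r3]; group
    have := (zc m).mul_right (f ▸ d.conj c)
    rw [← mul_assoc, ← map_mul, zQ_mul_self, map_one, one_mul] at this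
    simpa [mul_assoc] using h.nh (NH_t (h.mem_NH m (mem_NV.2 ⟨DD_snd (h.le m), congrArg Prod.snd this⟩)))
  have key3 {g} (a : g ∈ K) : (tD S * c) ^ 3 * g * ((tD S * c) ^ 3)⁻¹ ∈ H := by
    simpa only [pow_three, _root_.mul_inv_rev, mul_assoc] using (mK.1 (key (key (key a)))).1
  generalize tD S * c = ρ at *
  have t {x y z} (a : ρ * x * ρ⁻¹ = y) (b : ρ * y * ρ⁻¹ = z) (c : ρ * z * ρ⁻¹ = x) : ρ ^ 3 * x = x * ρ ^ 3 := by
    rw [← mul_inv_eq_iff_eq_mul]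
    conv_rhs => rw [← c, ← b, ← a]
    simp only [pow_three, _root_.mul_inv_rev, mul_assoc]
  obtain ⟨k, k1, k2⟩ := h.sur1 (m1 _ (congrArg Prod.fst (t r1 r2 r3)))
  have k3 : k ∈ K := mK.2 ⟨k1, mul_inv_eq_iff_eq_mul.1 (conj_D1 (h.le k1) (k2 ▸ mul_inv_eq_iff_eq_mul.2 (congrArg Prod.fst (t r2 r3 r1)))),
    mul_inv_eq_iff_eq_mul.1 (conj_D1 (h.le k1) (k2 ▸ mul_inv_eq_iff_eq_mul.2 (congrArg Prod.fst (t r3 r1 r2))))⟩
  have k4 : ρ * k * ρ⁻¹ = k := mul_inv_eq_one.1 (h.fst_inj (mul_mem (key k3).1.1 (inv_mem k1)) (by simp [k2, pow_three, mul_assoc]))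
  have k5 : (ρ ^ 3 * k⁻¹).1 = 1 := by simp [k2]
  obtain ⟨v, a, b⟩ := cen_V3 (w := (ρ ^ 3 * k⁻¹).2) (mul_mem m2 (inv_mem (DD_snd (h.le k1)))) (s := s) (n := n) e fun v a b => by
    have d : qD I v ∈ K := mK.2 ⟨h.q v, mul_inv_eq_iff_eq_mul.1 (conj_D2 (qD_mem v) (mul_inv_eq_iff_eq_mul.2 (mem_NV.1 a).2)),
      mul_inv_eq_iff_eq_mul.1 (conj_D2 (qD_mem v) (mul_inv_eq_iff_eq_mul.2 (hu ▸ b)))⟩
    have := mul_mem (key3 (mul_mem (mul_mem (inv_mem k3) d) k3)) (inv_mem (h.q v))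
    rw [show ρ ^ 3 * (k⁻¹ * qD I v * k) * (ρ ^ 3)⁻¹ = ρ ^ 3 * k⁻¹ * qD I v * (ρ ^ 3 * k⁻¹)⁻¹ by group] at this
    exact congrArg Prod.snd (mul_inv_eq_iff_eq_mul.1 (mul_inv_eq_one.1 (h.fst_inj this (by
      rw [Prod.fst_mul, Prod.fst_mul, Prod.fst_mul, Prod.fst_inv, k5]; simp))))
  exact ⟨_, k5, fix3 h1 h2 h3 (fun e => zero_ne_one (congrArg Q.s (qV_injective e)).symm) (NV_z wA_mem).symm a (hu ▸ b)
    (congrArg Prod.snd (show ρ * (ρ ^ 3 * k⁻¹) * ρ⁻¹ = ρ ^ 3 * k⁻¹ by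
      rw [← _root_.conj_mul, ← _root_.conj_inv, k4]; group)), by simpa using k1⟩

end HH

end Cfsg.Lib.Griess.MA
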