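import Cfsg.Agent.Lib.MA.B5

/-! # The action of `L` on the conjugates of `z` -/

set_option autoImplicit false

namespace Cfsg.Lib.Griess.MA

open Matrix Subgroup MulAction Cfsg.Lib.Leech Cfsg.Lib.Mon Cfsg.Spor Function

theorem ncard_range {Γ X : Type*} [Group Γ] (H : Subgroup Γ) (f : Γ → X) (h : ∀ a b, f a = f b ↔ a⁻¹ * b ∈ H) :
    (Set.range f).ncard = H.index := by
  rw [← Nat.card_coe_set_eq, ← Nat.card_congr (Setoid.quotientKerEquivRange f), index]
  exact Nat.card_congr (Quotient.congr (Equiv.refl _) fun a b => (h a b).trans QuotientGroup.leftRel_apply.symm)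

/-- a basis of an eight-group whose involutions form `T` -/
def Bs {G : Type*} [Group G] (T : Set G) (a b c : G) : Prop := a ∈ T ∧ b ∈ T ∧ c ∈ T ∧ a ≠ b ∧ c ≠ a ∧ c ≠ b ∧ c ≠ a * b

theorem trans_bs {G A : Type*} [Group G] [Group A] {L : Subgroup G} {T : Set G} (hT : T.ncard = 7) (h1 : 1 ∉ T)
    (hm : ∀ a ∈ T, ∀ b ∈ T, a ≠ b → a * b ∈ T) (hc : ∀ l ∈ L, ∀ t ∈ T, l * t * l⁻¹ ∈ T) (hA : Nat.card A = 168) {α : L →* A}
    (hs : Surjective α) {a b c a' b' c' : G} (h : Bs T a b c) (h' : Bs T a' b' c')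
    (hk : ∀ l : L, l * a = a * l → l * b = b * l → l * c = c * l → α l = 1) :
    ∃ l ∈ L, l * a * l⁻¹ = a' ∧ l * b * l⁻¹ = b' ∧ l * c * l⁻¹ = c' := by
  classical
  have : Finite A := Nat.finite_of_card_ne_zero (by omega)
  have := Fintype.ofFinite A
  lift T to Finset G using Set.finite_of_ncard_ne_zero (by omega)
  rw [Set.ncard_coe_finset] at hT
  let X := T.offDiag.sigma fun p => T \ {p.1, p.2, p.1 * p.2}
  have mX {a b c} : (⟨(a, b), c⟩ : Σ _ : G × G, G) ∈ X ↔ Bs T a b c := by simp [X, Bs, and_assoc, and_left_comm]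
  have cX : X.card = 168 := by
    rw [Finset.card_sigma, Finset.sum_congr rfl (g := fun _ => 4), Finset.sum_const, Finset.offDiag_card, hT]
    · rfl
    intro p hp
    obtain ⟨u, v, w⟩ := Finset.mem_offDiag.1 hp
    rw [Finset.card_sdiff_of_subset (by simp [Finset.subset_iff, u, v]; exact hm _ u _ v w), hT,
      Finset.card_eq_three.2 ⟨_, _, _, w, fun e => h1 (left_eq_mul.1 e ▸ v), fun e => h1 (right_eq_mul.1 e ▸ u), rfl⟩]
  choose s hs using hs
  obtain ⟨t, -, e⟩ := Finset.surj_on_of_inj_on_of_card_le (s := Finset.univ) (t := X)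
    (fun t _ => ⟨(s t * a * (s t : G)⁻¹, s t * b * (s t : G)⁻¹), s t * c * (s t : G)⁻¹⟩)
    (fun t _ => mX.2 ⟨hc _ (s t).2 _ h.1, hc _ (s t).2 _ h.2.1, hc _ (s t).2 _ h.2.2.1, by simpa using h.2.2.2.1,
      by simpa using h.2.2.2.2.1, by simpa using h.2.2.2.2.2.1, by rw [_root_.conj_mul]; simpa using h.2.2.2.2.2.2⟩)
    (fun t u _ _ e => by
      have k {x : G} (e : s t * x * (s t : G)⁻¹ = s u * x * (s u : G)⁻¹) : ((s u)⁻¹ * s t : L) * x = x * ((s u)⁻¹ * s t : L) := by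
        simp [mul_assoc, mul_inv_eq_iff_eq_mul.1 e]
      simp only [Sigma.mk.injEq, Prod.mk.injEq, heq_eq_eq] at e
      have := hk _ (k e.1.1) (k e.1.2) (k e.2)
      rwa [map_mul, map_inv, hs, hs, inv_mul_eq_one, eq_comm] at this)
    (by rw [cX, Finset.card_univ, ← Nat.card_eq_fintype_card, hA]) _ (mX.2 h')
  simp only [Sigma.mk.injEq, Prod.mk.injEq, heq_eq_eq] at e
  exact ⟨s t, (s t).2, e.1.1.symm, e.1.2.symm, e.2.symm⟩

variable [AQ]

namespace Am

variable {A : Type} [Group A] {N L : Subgroup Aut} (D : Am A CZ N L) (hs : im D.PP = signs)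
include hs

theorem cen_L {l : Aut} (h : l ∈ L) (c : l * zA = zA * l) : l ∈ CZ :=
  let ⟨_, _, a, k⟩ := D.exists_sw hs
  (le_or_le (by norm_num) D.hLC (K := centralizer {zA}) fun _ u => mem_centralizer_singleton_iff.2 (comm_z u.1)).resolve_left
    (fun l => zero_ne_one (congrArg Q.s (qV_injective (k.xz.symm.trans (mul_inv_eq_iff_eq_mul.2
      (mem_centralizer_singleton_iff.1 (l a))))))) ⟨mem_centralizer_singleton_iff.2 c, h⟩

theorem exists_l : ∃ u : Q, piQ u ≠ 0 ∧ piQ u ≠ om ∧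
    (∃ l ∈ L, l * zA * l⁻¹ = wA ∧ l * wA * l⁻¹ = qV u ∧ l * qV u * l⁻¹ = zA) ∧
    ∃ y ∈ L, y * zA * y⁻¹ = zA ∧ y * wA * y⁻¹ = qV u ∧ y * qV u * y⁻¹ = wA * qV u := by
  obtain ⟨-, x, a, k⟩ := D.exists_sw hs
  let T := Set.range fun l : L => l * zA * (l : Aut)⁻¹
  let O := Set.range fun c : ↥(CZ ⊓ L) => rhoC (inclusion inf_le_left c) • om
  have cT : T.ncard = 7 := (ncard_range (CZ.subgroupOf L) _ fun a b => by
    rw [eq_comm, mul_inv_eq_iff_eq_mul, mul_assoc, mul_assoc, ← inv_mul_eq_iff_eq_mul, ← mul_assoc]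
    exact ⟨D.cen_L hs (a⁻¹ * b).2, comm_z⟩).trans D.hLC
  have cO : O.ncard = 3 := (ncard_range (N.subgroupOf (CZ ⊓ L)) _ fun a b => by
    rw [eq_comm, ← inv_smul_eq_iff, ← mul_smul, ← map_inv, ← map_mul, ← D.mem_N_iff hs]; rfl).trans (by
      have := relIndex_inf_mul_relIndex N CZ L
      rw [D.hLC, D.hLNC] at this
      exact Nat.eq_of_mul_eq_mul_right (by decide : 0 < 7) this)
  have hc : ∀ l ∈ L, ∀ t ∈ T, l * t * l⁻¹ ∈ T := by
    rintro l h _ ⟨m, rfl⟩; exact ⟨⟨l, h⟩ * m, by simp [mul_assoc]⟩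
  have z : zA ∈ T := ⟨1, by simp⟩
  have w : wA ∈ T := k.xz ▸ hc x a _ z
  have O0 : 0 ∉ O := fun ⟨c, e⟩ => om_ne_zero ((smul_eq_zero_iff_eq _).1 e)
  have sub {y} (h : piQ y ∈ O) : qV y ∈ T := by
    obtain ⟨c, e⟩ := h
    obtain ⟨v, f⟩ := exists_conj c.2.1 aOm
    rcases piQ_eq_iff.1 (e.symm.trans (piQ_conj (inclusion inf_le_left c) f).symm) with rfl | rfl
    · exact f ▸ hc _ c.2.2 _ w
    · rw [map_mul, ← f, ← conj_z c.2.1, _root_.conj_mul, ← k.xw]
      exact hc _ c.2.2 _ (hc x a _ w)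
  have mT {t} (h : t ∈ T) : t = zA ∨ ∃ y, piQ y ∈ O ∧ qV y = t := by
    have : Finite O := Set.finite_of_ncard_ne_zero (by omega)
    let F : ZMod 2 × O → Aut := fun p => qV (zp p.1 * surjInv piQ_surjective p.2)
    have p (p : ZMod 2 × O) : piQ (zp p.1 * surjInv piQ_surjective p.2) = p.2 := (piQ_zp_mul _ _).trans (surjInv_eq _ _)
    have i : Injective F := fun u v e => by
      have e := qV_injective e
      have f : u.2 = v.2 := Subtype.ext ((p u).symm.trans ((congrArg piQ e).trans (p v)))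
      exact Prod.ext (congrArg Q.s (mul_right_cancel (f ▸ e))) f
    refine ((Set.eq_of_subset_of_ncard_le (s := insert zA (Set.range F)) (Set.insert_subset z ?_) (by
      rw [Set.ncard_insert_of_notMem (by rintro ⟨u, e⟩; exact O0 (by rw [← piQ_zQ, ← qV_injective e, p]; exact u.2.2)),
        Set.ncard_range_of_injective i, Nat.card_prod, Nat.card_coe_set_eq, cO, cT, Nat.card_zmod])
      (Set.finite_of_ncard_ne_zero (by omega))).ge h).imp id fun ⟨u, e⟩ => ⟨_, (p u).symm ▸ u.2.2, e⟩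
    rintro _ ⟨u, rfl⟩
    exact sub ((p u).symm ▸ u.2.2)
  have hm : ∀ a ∈ T, ∀ b ∈ T, a ≠ b → a * b ∈ T := by
    rintro _ ⟨l, rfl⟩ b hb n
    obtain e | ⟨y, e, f⟩ := mT (hc _ (inv_mem l.2) b hb)
    · exact (n (by simp [← e, mul_assoc])).elim
    · simpa [f, mul_assoc] using hc _ l.2 _ (sub (y := zQ * y) (by rwa [piQ_mul, piQ_zQ, zero_add]))
  have h1 : 1 ∉ T := fun ⟨l, e⟩ => z_ne (by simpa using e)
  obtain ⟨β, b1, b2⟩ := Set.exists_ne_of_one_lt_ncard (s := O) (by omega) om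
  obtain ⟨u, rfl⟩ := piQ_surjective β
  have b0 : piQ u ≠ 0 := fun e => O0 (e ▸ b1)
  have ne {p q} (h : piQ p ≠ piQ q) : qV p ≠ qV q := fun e => h (congrArg piQ (qV_injective e))
  have n1 : zA ≠ wA := ne (piQ_zQ.trans_ne om_ne_zero.symm)
  have n2 : qV u ≠ zA := ne (piQ_zQ.trans_ne b0.symm).symm
  have n3 : zA ≠ wA * qV u := map_mul qV _ _ ▸ ne fun e => b2 (by
    rw [piQ_zQ, piQ_mul, eq_comm, add_eq_zero_iff_neg_eq, l2_neg] at e; exact e.symm)
  have b3 : om + piQ u ∈ O := (mT (hm _ w _ (sub b1) (ne b2.symm))).elim (fun e => (n3 e.symm).elim) fun ⟨y, e, f⟩ => by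
    rwa [qV_injective (f.trans (map_mul qV _ _).symm), piQ_mul] at e
  have eO : O = {om, piQ u, om + piQ u} := (Set.eq_of_subset_of_ncard_le (by
    simp only [Set.insert_subset_iff, Set.singleton_subset_iff]; exact ⟨⟨1, by simp⟩, b1, b3⟩) (cO.trans (Set.ncard_eq_three.2
      ⟨_, _, _, b2.symm, fun e => b0 (left_eq_add.1 e), fun e => om_ne_zero (right_eq_add.1 e), rfl⟩).symm).le
      (Set.finite_of_ncard_ne_zero (by omega))).symm
  have B : Bs T zA wA (qV u) := ⟨z, w, sub b1, n1, n2, ne b2, (ne (b2.trans_eq (piQ_zp_mul 1 _).symm)).trans_eq (map_mul qV _ _)⟩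
  have hk (l : L) (c1 : l * zA = zA * l) (c2 : l * wA = wA * l) (c3 : l * qV u = qV u * l) : D.α l = 1 := by
    have := D.hA.simple
    have c {t} (h : t ∈ T) : Commute (l : Aut) t := by
      obtain rfl | ⟨y, e, rfl⟩ := mT h
      · exact c1
      obtain ⟨v, e, f⟩ : ∃ v, piQ y = piQ v ∧ Commute (l : Aut) (qV v) := by
        rcases eO.le e with e | e | e
        exacts [⟨_, e, c2⟩, ⟨_, e, c3⟩, ⟨_, e.trans (piQ_mul _ _).symm, map_mul qV _ _ ▸ Commute.mul_right c2 c3⟩]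
      rcases piQ_eq_iff.1 e with rfl | rfl
      exacts [f, map_mul qV _ _ ▸ Commute.mul_right c1 f]
    refine (((normalCore_normal (CZ.subgroupOf L)).map D.α D.αs).eq_bot_or_eq_top.resolve_right fun e => ?_).le
      ⟨l, fun m => D.cen_L hs (m * l * m⁻¹).2 ?_, rfl⟩
    · have := (index_map_eq _ D.αs D.kerL.1).trans D.hLC
      rw [top_le_iff.1 (e.ge.trans (map_mono (normalCore_le _))), index_top] at this
      exact absurd this (by decide)
    · have := (c (hc _ (inv_mem m.2) _ z)).eq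
      rw [← mul_left_inj (m : Aut)⁻¹, ← mul_right_inj (m : Aut)] at this
      simpa [mul_assoc] using this
  exact ⟨u, b0, b2, trans_bs cT h1 hm hc D.hA.card D.αs B ⟨w, sub b1, z, ne b2.symm, n1, n2.symm, n3⟩ hk,
    trans_bs cT h1 hm hc D.hA.card D.αs B ⟨z, sub b1, hm _ w _ (sub b1) (ne b2.symm), n2.symm, n3.symm,
      fun e => h1 (mul_eq_right.1 e ▸ w), fun e => n1 (mul_right_cancel e).symm⟩ hk⟩

end Am

end Cfsg.Lib.Griess.MA
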