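import Cfsg.Agent.Lib.MA.T

/-! # Existence of a triality element -/

set_option autoImplicit false

namespace Cfsg.Lib.Griess.MA

open Finset Matrix Subgroup Cfsg.Lib.Leech Cfsg.Lib.Mon Cfsg.Lib.ES

variable [AQ]

/-- `N` normalizes `C(z, ω)` and contains `Q` and an element `x` permuting `z`, `ω`, `z ω`. -/
structure Sw (N : Subgroup Aut) (x : Aut) : Prop where
  mem : x ∈ N
  q : ∀ q, qV q ∈ N
  xz : x * zA * x⁻¹ = wA
  xw : x * wA * x⁻¹ = zA * wA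
  nor : ∀ n ∈ N, ∀ g ∈ NV, n * g * n⁻¹ ∈ NV
  cz : ∀ n ∈ N, n * zA = zA * n → n ∈ CZ
  img : ∀ e, ∃ q, qV q ∈ NV ∧ Ind (x * qV q * x⁻¹) 1 e

theorem conj_qV_mem {k : Aut} {p : Q} (hk : k ∈ NV) (h : qV p ∈ NV) : ∃ q, qV q ∈ NV ∧ k * qV p * k⁻¹ = qV q :=
  let ⟨q, e⟩ := exists_conj hk.1 p
  ⟨q, e ▸ mul_mem (mul_mem hk h) (inv_mem hk), e⟩

omit [AQ] in
theorem even_family {T : W → Prop} (h0 : T 0) (ha : ∀ u v, T u → T v → T (u + v))
    (hs : ∀ σ u, u ⬝ᵥ 1 = 0 → T u → T (sW σ u)) (h : ∀ d e : Cd, T ((d : W) * e)) {δ : W} (e : δ ⬝ᵥ 1 = 0) : T δ := by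
  have F : Mathieu.InvFam {c | ∃ δ : W, support₂ δ = c ∧ δ ⬝ᵥ 1 = 0 ∧ T δ} :=
    ⟨⟨0, by simp [support₂], by simp, h0⟩, by
      rintro _ ⟨d, rfl, a, a'⟩ _ ⟨e, rfl, b, b'⟩
      exact ⟨d + e, Golay.support₂_add _ _, by rw [add_dotProduct, a, b, add_zero], ha _ _ a' b'⟩, by
      rintro σ _ ⟨d, rfl, a, a'⟩
      exact ⟨_, support_sW _ _, sW_even σ a, hs σ d a a'⟩⟩
  have b (d e : Cd) : ((d : W) * (e : W)) ⬝ᵥ 1 = 0 ∧ T ((d : W) * e) := ⟨mul_dot_one d e, h d e⟩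
  obtain ⟨ε, e1, -, e2⟩ := F.of_pair (by decide +kernel : #(support₂ (Golay.word (Golay.G.toF 13062145) *
    Golay.word (Golay.G.toF 4038912))) = 2) ⟨_, rfl, b
    ⟨_, Golay.mem_CW.1 (Golay.basisL_mem 13062145 (by decide))⟩ ⟨_, Golay.mem_CW.1 (Golay.basisL_mem 4038912 (by decide))⟩⟩
    (support₂ δ) (even_iff_two_dvd.2 (even_wt_iff.2 e))
  exact Golay.support₂_injective e1 ▸ e2

variable {N : Subgroup Aut} {g : Aut}

theorem Sw.swap (h : Sw N g) : ∃ u ∈ N, u * u = 1 ∧ u * zA * u⁻¹ = wA * zA ∧ u * wA * u⁻¹ = wA ∧ Dp u 1 := by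
  let P : Subgroup Aut := (qV.range ⊓ NV).map (MulAut.conj g).toMonoidHom
  have mP {a} : a ∈ P ↔ ∃ q, qV q ∈ NV ∧ g * qV q * g⁻¹ = a :=
    ⟨fun ⟨_, ⟨⟨q, e⟩, k⟩, l⟩ => ⟨q, e ▸ k, e ▸ l⟩, fun ⟨q, k, l⟩ => ⟨_, ⟨⟨q, rfl⟩, k⟩, l⟩⟩
  have zw := NV_z wA_mem
  have g3 : g * (zA * wA) * g⁻¹ = zA := by
    rw [← _root_.conj_mul, h.xz, h.xw, ← mul_assoc, zw, mul_assoc, wA_mul_self, mul_one]
  have pw : wA ∈ P := mP.2 ⟨_, zA_mem, h.xz⟩
  have pz : zA ∈ P := mP.2 ⟨zQ * aOm, map_mul qV _ _ ▸ mul_mem zA_mem wA_mem, map_mul qV _ _ ▸ g3⟩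
  have b1 := bq_conj_wA (e1 none)
  rw [e1_dot, Pi.one_apply, zp_one] at b1
  have b2 := comm_z (bq_mem_CZ (e1 none))
  have v (s n : ZMod 2) : qV (qe s (n • Om) 0) ∈ P := by
    rcases z2_cases s with rfl | rfl <;> rcases z2_cases n with rfl | rfl
    · rw [zero_smul, ← bq, bq_zero]; exact one_mem _
    · exact aOm_eq ▸ pw
    · exact zQ_eq ▸ pz
    · rw [← zQ_mul_aOm, map_mul]; exact mul_mem pz pw
  have m {s n : ZMod 2} {δ : W} : qV (qe s (n • Om) δ) ∈ P ↔ bq δ ∈ P := by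
    rw [qe_Om, map_mul, mul_mem_cancel_left (v s n), bq]
  have nm {k a} (hk : k ∈ NV) (ha : a ∈ P) : k * a * k⁻¹ ∈ P := by
    obtain ⟨q, h1, rfl⟩ := mP.1 ha
    obtain ⟨p, h2, e⟩ := conj_qV_mem (h.nor _ (inv_mem h.mem) k hk) h1
    exact mP.2 ⟨p, h2, by rw [← e]; group⟩
  have F {δ : W} : δ ⬝ᵥ 1 = 0 → bq δ ∈ P := even_family (T := fun δ => bq δ ∈ P) (bq_zero ▸ one_mem _)
    (fun d e a b => bq_add d e ▸ mul_mem a b) (fun σ d a a' => by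
      obtain ⟨k, k1, k2⟩ := exists_NV σ 0
      obtain ⟨t, n, e⟩ := k2.dp 0 0 d a
      exact m.1 (e ▸ nm k1 (m.2 a'))) fun d e => by
    obtain ⟨y, y1, y2⟩ := h.img e
    obtain ⟨r, k⟩ := y2.conj' (mo_xq 0 d e)
    have y3 := mP.2 ⟨y, y1, rfl⟩
    rw [← mul_assoc, zp_mul_qe, map_mul, ← xq, ← mul_inv_eq_iff_eq_mul, mul_assoc, mul_assoc] at k
    exact m.1 (k ▸ mul_mem y3 (mul_assoc _ _ (xq 0 d)⁻¹ ▸ nm (xq_mem 0 d) (inv_mem y3)))
  refine ⟨g * bq (e1 none) * g⁻¹, mul_mem (mul_mem h.mem (h.q _)) (inv_mem h.mem), by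
    rw [_root_.conj_mul, bq_mul_self, mul_one, mul_inv_cancel], ?_, ?_, fun s n δ e => ?_⟩
  · nth_rw 1 [← g3]
    rw [conj_inv, _root_.conj_mul, _root_.conj_mul, bq_inv, ← mul_assoc (bq _), b2, mul_assoc zA, mul_assoc zA, b1,
      ← mul_assoc zA, zA_mul_self, one_mul, h.xw, zw]
  · nth_rw 1 [← h.xz]
    rw [conj_inv, _root_.conj_mul, _root_.conj_mul, b2, mul_inv_cancel_right, h.xz]
  obtain ⟨y, -, k⟩ := mP.1 (m.2 (F e) : qV (qe s (n • Om) δ) ∈ P)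
  rw [← k, conj_inv, _root_.conj_mul, _root_.conj_mul, bq, qV_conj, ← _root_.conj_mul, k]
  rcases zp_cases (pr (qe 0 0 (e1 none)).d y.c + pr y.d (qe 0 0 (e1 none)).c) with l | l <;> rw [l]
  · exact ⟨s, n, by simp; rfl⟩
  · exact ⟨_, _, by rw [h.xz, wA, aOm_eq, qV_A_mul _ _ _ _ (by simp), zero_add δ]; rfl⟩

theorem Sw.exists_MN (h : Sw N g) : ∃ _ : MN, tau ∈ N := by
  obtain ⟨u, u0, u1, u2, u3, u4⟩ := h.swap
  have b1 := bq_conj_wA (e1 none)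
  rw [e1_dot, Pi.one_apply, zp_one] at b1
  have b2 := comm_z (bq_mem_CZ (e1 none))
  have zw := NV_z wA_mem
  have t1 : SemiconjBy (bq (e1 none) * u) zA wA := by
    rw [SemiconjBy, ← mul_inv_eq_iff_eq_mul, _root_.mul_inv_rev, mul_assoc _ u, mul_assoc, ← mul_assoc (u * _), u2, bq_inv,
      mul_assoc wA, ← b2, ← mul_assoc wA, ← mul_assoc, ← mul_assoc, b1, mul_assoc, zw, ← mul_assoc, zA_mul_self, one_mul]
  have t2 : SemiconjBy (bq (e1 none) * u) wA (zA * wA) := by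
    rw [SemiconjBy, ← mul_inv_eq_iff_eq_mul, _root_.mul_inv_rev, mul_assoc _ u, mul_assoc, ← mul_assoc (u * _), u3, bq_inv,
      ← mul_assoc, b1]
  have t3 := t1.mul_right t2
  rw [← mul_assoc wA, zw, mul_assoc zA wA, wA_mul_self, mul_one] at t3
  have t4 : Dp (bq (e1 none) * u) 1 := by simpa [bq] using (ind_qV _).dp.mul u4
  have t5 : bq (e1 none) * (bq (e1 none) * u) * (bq (e1 none))⁻¹ = (bq (e1 none) * u)⁻¹ := by
    rw [← mul_assoc, bq_mul_self, one_mul, _root_.mul_inv_rev, inv_eq_of_mul_eq_one_right u1]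
  have t0 : bq (e1 none) * u ∈ N := mul_mem (h.q _) u0
  generalize bq (e1 none) * u = t at t0 t1 t2 t3 t4 t5
  have t6 : t ^ 3 ∈ NV := mem_NV.2 ⟨h.cz _ (pow_mem t0 3) (pow_three t ▸ t3.mul_left (t2.mul_left t1)),
    pow_three t ▸ t1.mul_left (t3.mul_left t2)⟩
  have t7 := pow_eight t6 (by simpa using t4.pow 3)
  have t8 := And.intro (NV_z (pow_mem t6 5)) (mem_NV.1 (pow_mem t6 5)).2
  obtain ⟨τ, sN, s0, s1, s2, s4, s5⟩ : ∃ τ ∈ N, τ ^ 3 = 1 ∧ SemiconjBy τ zA wA ∧ SemiconjBy τ wA (zA * wA) ∧ Dp τ 1 ∧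
      bq (e1 none) * τ * (bq (e1 none))⁻¹ = τ⁻¹ :=
    ⟨t ^ 16, pow_mem t0 16, by rw [← pow_mul, show 16 * 3 = 3 * 8 * 2 from rfl, pow_mul, pow_mul, t7, one_pow],
      by rw [pow_succ' t 15, show 15 = 3 * 5 from rfl, pow_mul]; exact t1.mul_left t8.1,
      by rw [pow_succ' t 15, show 15 = 3 * 5 from rfl, pow_mul]; exact t2.mul_left t8.2,
      by simpa using t4.pow 16, by rw [← conj_pow, t5, inv_pow]⟩
  have nz {s} (k : Commute τ (qV (zp s))) : s = 0 := (z2_cases s).resolve_right fun e => by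
    rw [e, zp_one, Commute, SemiconjBy, s1, mul_left_inj] at k
    exact zero_ne_one (congrArg Q.s (qV_injective k))
  have : ∀ i, ∃ s, Commute τ (qV (qe s 0 (e1 i + e1 none))) := fun i => by
    have ev := pair_dot_one i none
    generalize e1 i + e1 none = δ at ev
    obtain ⟨a, b, e1⟩ := s4 0 0 δ ev
    obtain ⟨c, d, e2⟩ := s4 a b δ ev
    change _ = qV (qe _ _ δ) at e1 e2
    have e3 : τ * qV (qe c (d • Om) δ) * τ⁻¹ = qV (qe 0 ((0 : ZMod 2) • Om) δ) := by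
      rw [← e2, ← e1]
      calc _ = τ ^ 3 * qV (qe 0 ((0 : ZMod 2) • Om) δ) * (τ ^ 3)⁻¹ := by simp only [pow_succ, pow_zero, one_mul]; group
        _ = _ := by rw [s0]; simp
    have e4 : Commute τ (qV (qe (a + c) ((b + d) • Om) δ)) := by
      have k : ∀ s t r n m l : ZMod 2, qV (qe s (n • Om) δ) * qV (qe t (m • Om) δ) * qV (qe r (l • Om) δ) =
          qV (qe (s + t + r) ((n + m + l) • Om) δ) := fun s t r n m l => by
        rw [qV_A_mul _ _ _ _ ev, w_add_self, qV_A_mul _ _ _ _ (by simp), zero_add]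
      refine mul_inv_eq_iff_eq_mul.1 ?_
      nth_rw 1 [← zero_add a, ← zero_add b]
      rw [← k, ← _root_.conj_mul, ← _root_.conj_mul, e1, e2, e3, k, add_zero, add_zero]
    have e5 := (e4.conj (bq (Griess.e1 none))).inv_left
    rw [s5, inv_inv, bq, qV_conj] at e5
    have := nz (by simpa using e5.mul_right e4.inv_right)
    exact ⟨_, by simpa [show b + d = 0 by simpa using this] using e4⟩
  choose c hc using this
  have c0 : c none = 0 := nz (by simpa only [w_add_self, show ∀ s, qe s 0 0 = zp s from fun _ => rfl] using hc none)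
  have c1 (δ : W) : Commute τ (qV (qe (c ⬝ᵥ δ) 0 (δ + (δ ⬝ᵥ 1) • e1 none))) := by
    induction δ using w_induction with
    | h0 => simp only [dotProduct_zero, zero_dotProduct, zero_smul, add_zero, ← bq.eq_1, bq_zero]; exact .one_right _
    | h1 i => simpa using hc i
    | ha u v hu hv =>
      have := hu.mul_right hv
      rw [← map_mul, qe_mul] at this
      simpa [add_smul, add_add_add_comm] using this
  have c2 : c ∈ golayCode := mem_code_of_dot fun d => dotProduct_comm c d ▸ nz (by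
    have := c1 d
    rwa [code_dot_one, zero_smul, add_zero, show qe _ 0 d = zp _ from Q.ext rfl rfl (cs_eq_zero.2 d.2)] at this)
  have a1 : Commute (qV (qe 0 ⟨c, c2⟩ 0)) zA := comm_z (qV_mem _)
  have a2 : Commute (qV (qe 0 ⟨c, c2⟩ 0)) wA := qV_comm (by simp)
  have a3 : Commute (qV (qe 0 ⟨c, c2⟩ 0)) (bq (e1 none)) := qV_comm (by simp [c0])
  have a4 (δ : W) (e : δ ⬝ᵥ 1 = 0) : Commute τ (qV (qe 0 ⟨c, c2⟩ 0) * bq δ * (qV (qe 0 ⟨c, c2⟩ 0))⁻¹) := by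
    rw [bq, qV_conj, ← map_mul, zp_mul_qe]
    simpa [e] using c1 δ
  have a0 := mul_mem (mul_mem (inv_mem (h.q (qe 0 ⟨c, c2⟩ 0))) sN) (inv_mem (inv_mem (h.q (qe 0 ⟨c, c2⟩ 0))))
  generalize qV (qe 0 ⟨c, c2⟩ 0) = a at a0 a1 a2 a3 a4
  refine ⟨⟨a⁻¹ * τ * a⁻¹⁻¹, by rw [conj_pow, s0]; simp, ?_, ?_, fun δ e => ?_, ?_, h.nor _ a0⟩, a0⟩ <;> rw [inv_inv]
  · exact mul_inv_eq_iff_eq_mul.2 ((SemiconjBy.mul_left a2.inv_left s1).mul_left a1)
  · exact mul_inv_eq_iff_eq_mul.2 ((SemiconjBy.mul_left (a1.mul_right a2).inv_left s2).mul_left a2)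
  · rw [mul_inv_eq_iff_eq_mul]
    simpa [mul_assoc] using ((a4 δ e).conj a⁻¹).eq
  · rw [bq_inv] at s5
    rw [mul_assoc, mul_assoc _ a, a3.eq, ← mul_assoc, ← mul_assoc, ← mul_assoc, ← a3.inv_left.eq]
    simp only [_root_.mul_inv_rev, inv_inv, ← s5, mul_assoc]

end Cfsg.Lib.Griess.MA
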