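import Cfsg.Agent.Lib.MA.LF
import Cfsg.Agent.Lib.MA.Mk
import Cfsg.Agent.Lib.MT.CD

/-! # The action of the sign changes on `Λ / 2 Λ` -/

set_option autoImplicit false

namespace Cfsg.Lib.Griess.MA

open Finset Matrix Subgroup MulAction Cfsg.Lib.Leech Cfsg.Lib.Mon Cfsg.Spor

theorem mo_inj {σ : M24} {c d : Cd} (h : (mo σ c : Co1) = mo σ d) : d = c ∨ d = c + Om :=
  (eq_of_piQ_eW ((mo_wv σ c none).symm.trans (h ▸ mo_wv σ d none))).2

theorem mem_signs' {t : Co1} : t ∈ signs ↔ ∃ c, t = (mo 1 c : Co1) := by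
  rw [CoT.mem_signs]
  refine ⟨fun ⟨c, h, e⟩ => e ▸ MT.sg_eq_mo h, ?_⟩
  rintro ⟨c, rfl⟩
  exact ⟨_, support_mem_GC c.2, by rw [CoT.sg, CoT.sg0_eq (support_mem_GC c.2)]; rfl⟩

theorem fix_pair {i j : Pt} {c : Cd} (h : ∀ σ : M24, (σ : Equiv.Perm Pt) i = i → (σ : Equiv.Perm Pt) j = j →
    sC σ c = c ∨ sC σ c = c + Om) : c = 0 ∨ c = Om := by
  by_contra! n
  have w : 8 ≤ wt c ∧ 8 ≤ wt ((c : W) + 1) := by
    have := wt_code c
    have := wt_add_one (c : W)
    have : wt c ≠ 0 := fun e => n.1 (Subtype.ext (wt_eq_zero e))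
    have : wt ((c : W) + 1) ≠ 0 := fun e => n.2 (Subtype.ext (w_eq_iff.2 (wt_eq_zero e)))
    omega
  obtain ⟨a, ha, a1⟩ := M3.exists_mem_wt (u := c) {i, j} (card_le_two.trans_lt (by omega))
  obtain ⟨a', ha', a2⟩ := M3.exists_mem_wt (u := c) {i, j, a} (card_le_three.trans_lt (by omega))
  obtain ⟨b, hb, b1⟩ := M3.exists_mem_wt (u := (c : W) + 1) {i, j} (card_le_two.trans_lt (by omega))
  replace hb : (c : W) b = 0 := by simpa using hb
  obtain ⟨σ, -, s1, s2⟩ := Mathieu.tr5_univ.move (v := {i, j, a}) (subset_univ _) (card_le_three.trans (by decide)) (mem_univ a')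
    (mem_univ b) a2 (by
      simp only [mem_insert, mem_singleton, not_or] at b1 ⊢
      exact ⟨b1.1, b1.2, fun e => by simp [e, ha] at hb⟩)
  have e1 := sW_apply σ c a
  have e2 := sW_apply σ c a'
  rw [s1 a (by simp), ha] at e1
  rw [s2, ha'] at e2
  rcases h σ (s1 i (by simp)) (s1 j (by simp)) with k | k <;> rw [← coe_sC, k] at e1 e2
  · simp [hb] at e2
  · simp [ha] at e1

theorem mo_ev {x : Q} (h : pr Om x.c = 0) (e : Cd) :
    ∃ n : ZMod 2, mo 1 e • piQ x = piQ (qe 0 (n • Om) ((x.d : W) * e) * x) := by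
  obtain ⟨s, d, δ, rfl⟩ := qe_surj x
  have ev : (th d + δ) ⬝ᵥ 1 = 0 := by simpa [add_dotProduct, dotProduct_comm] using h
  have := mo_even 1 e 0 0 ev
  refine ⟨hw ((d : W) * e) + (0 + (e : W) ⬝ᵥ sW 1 (th d + δ)), ?_⟩
  rw [piQ_congr (x := qe s d δ) (y := qe s d (th d) * qe 0 ((0 : ZMod 2) • Om) (th d + δ)) (by simp) (by simp [← add_assoc]),
    piQ_mul, smul_add, mo_xq, this, ← piQ_mul]
  exact piQ_congr (by simp [add_smul]; abel) (by
    simp only [show ∀ u, sW 1 u = u from fun _ => rfl, mul_c, qe_c, ← cs_add, add_assoc, ← add_assoc (th _), w_add_self, zero_add, qe_d])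

theorem mo_od {x : Q} (h : pr Om x.c = 1) (e : Cd) :
    ∃ w : Q, mo 1 e • piQ x = piQ (w * x) ∧ pr Om w.c = 0 ∧ ∃ n : ZMod 2, w.d = e + n • Om := by
  obtain ⟨n, k⟩ := mo_ev (x := x * eW 0 none) (by simp [eW_zero, h]) e
  have l := mo_wv 1 e none
  rw [mk_smul] at l
  rw [piQ_mul, smul_add, l, ← eq_sub_iff_add_eq] at k
  refine ⟨qe 0 (n • Om) (((x * eW 0 none).d : W) * e) * eW 0 none * eW e none, ?_, by
    simp [eW, dotProduct_comm 1, add_dotProduct, z2_add_self, -mul_d, mul_dot_one], n + (qw e + (e : W) none), by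
    simp [eW, add_smul]; abel⟩
  rw [k, sub_eq_iff_eq_add]
  simp only [piQ_mul, OneMemClass.coe_one, Equiv.Perm.coe_one, id]
  rw [add_right_comm _ (piQ x), add_assoc _ (piQ (eW e none)) (piQ (eW e none)), l2_add_self]; abel

theorem fam {T : W → Prop} (h0 : T 0) (ha : ∀ u v, T u → T v → T (u + v)) (hs : ∀ σ u, T u → T (sW σ u)) :
    Mathieu.InvFam {c | T (Golay.word c)} :=
  ⟨by simpa [show Golay.word ∅ = (0 : W) from funext fun _ => by simp [Golay.word]], fun s a t b => by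
    have := ha _ _ a b
    rwa [← Golay.word_support₂ (_ + _), Golay.support₂_add, Golay.support₂_word, Golay.support₂_word] at this, fun σ s a => by
    have := hs σ _ a
    rwa [← Golay.word_support₂ (sW _ _), support_sW, Golay.support₂_word] at this⟩

theorem code_family {T : Cd → Prop} (h0 : T 0) (ha : ∀ u v, T u → T v → T (u + v)) (hs : ∀ σ u, T u → T (sC σ u)) {d : Cd}
    (h : T d) (d0 : d ≠ 0) (d1 : d ≠ Om) (e : Cd) : T e := by
  obtain ⟨_, k⟩ := (fam (T := fun u => ∃ h, T ⟨u, h⟩) ⟨_, h0⟩ (fun _ _ ⟨_, a⟩ ⟨_, b⟩ => ⟨_, ha _ _ a b⟩)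
    fun σ _ ⟨_, a⟩ => ⟨_, hs σ _ a⟩).of_cw (s := support₂ (d : W)) (Golay.support₂_mem_supports.2 d.2)
    (fun k => d0 (Subtype.ext (Golay.support₂_injective (k.trans (by simp [support₂])))))
    (fun k => d1 (Subtype.ext (Golay.support₂_injective (k.trans (by simp [support₂]))))) (by simpa [Golay.word_support₂])
    (Golay.support₂_mem_supports.2 e.2)
  simpa [Golay.word_support₂] using k

theorem range_eq {K : Type*} [Group K] [Finite K] {φ : K →* Co1} {μ : K →* M24} (hμ : Function.Surjective μ)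
    (h : φ.ker ≤ μ.ker) (e : μ.ker.map φ = signs) : φ.range = stabilizer Co1 om := by
  have := finite_co1
  rw [om_eq]
  refine eq_of_le_of_card_ge (CoT.normalizer_signs ▸ e ▸ MonoidHom.range_eq_map φ ▸
    (map_mono (normalizer_eq_top _).ge).trans (le_normalizer_map φ)) ?_
  rw [card_stab, ← Core.card_mul_relIndex (map_le_range φ μ.ker), MonoidHom.range_eq_map, relIndex_map_map, sup_eq_left.2 h,
    top_sup_eq, relIndex_top_right, index_ker, MonoidHom.range_eq_top.2 hμ, card_top, e, card_signs, Mathieu.card_M24]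

end Cfsg.Lib.Griess.MA
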