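import Cfsg.Agent.Lib.MT.Fix
import Cfsg.Agent.Lib.MA.Q
import Cfsg.Agent.Lib.Mathieu.Move

/-! # The triality element: relations in the normalizer of `⟨z, ω⟩` -/

set_option autoImplicit false

namespace Cfsg.Lib.Griess.MA

open Finset Matrix Subgroup Cfsg.Lib.Leech Cfsg.Lib.Mon Cfsg.Lib.ES

variable [AQ]

/-- A triality element. -/
class MN where
  /-- the element -/
  t : Aut
  cube : t ^ 3 = 1
  tz : t * zA * t⁻¹ = wA
  tw : t * wA * t⁻¹ = zA * wA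
  tb : ∀ δ : W, δ ⬝ᵥ 1 = 0 → t * bq δ * t⁻¹ = bq δ
  bt : bq (e1 none) * t * bq (e1 none) = t⁻¹
  nor : ∀ g ∈ NV, t * g * t⁻¹ ∈ NV

theorem qV_A_mul (s t n m : ZMod 2) {δ : W} (h : δ ⬝ᵥ 1 = 0) (ε : W) :
    qV (qe s (n • Om) δ) * qV (qe t (m • Om) ε) = qV (qe (s + t) ((n + m) • Om) (δ + ε)) := by
  rw [← map_mul, qe_mul, add_smul]
  simp [dotProduct_comm 1 δ, h]

omit [AQ] in
theorem eq_Om {d : Cd} (h : ∀ ε : W, ε ⬝ᵥ 1 = 0 → (d : W) ⬝ᵥ ε = 0) : d = (d : W) none • Om :=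
  Subtype.ext (funext fun i => by simpa [z2_eq_iff.symm] using h _ (pair_dot_one i none))

variable [MN]

/-- the triality element -/
abbrev tau : Aut := MN.t
/-- `τ z ^ s x_d τ⁻¹` -/
def yq (s : ZMod 2) (d : Cd) : Aut := tau * xq s d * tau⁻¹

theorem tau_pow_three : tau ^ 3 = 1 := MN.cube
theorem tau_conj_zQ : tau * qV zQ * tau⁻¹ = qV aOm := MN.tz
theorem tau_conj_w : tau * wA * tau⁻¹ = zA * wA := MN.tw
theorem tau_conj_bq {δ : W} (h : δ ⬝ᵥ 1 = 0) : tau * bq δ * tau⁻¹ = bq δ := MN.tb δ h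
theorem tau_comm_bq {δ : W} (h : δ ⬝ᵥ 1 = 0) : tau * bq δ = bq δ * tau := mul_inv_eq_iff_eq_mul.1 (tau_conj_bq h)
theorem tau_mul_tau : tau * tau = tau⁻¹ := eq_inv_of_mul_eq_one_left (by rw [← tau_pow_three, pow_succ, sq])
theorem tau_inv_mul : tau⁻¹ * tau⁻¹ = tau := by rw [← _root_.mul_inv_rev, tau_mul_tau, inv_inv]
theorem tau_conj_zw : tau * (zA * wA) * tau⁻¹ = zA := by
  rw [← _root_.conj_mul, tau_conj_w, tau_conj_zQ, ← mul_assoc, NV_z wA_mem, mul_assoc, wA_mul_self, mul_one]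
theorem tau_conj_zaOm : tau * qV (zQ * aOm) * tau⁻¹ = qV zQ := by rw [map_mul, tau_conj_zw]

/-- The odd cocode elements invert `τ`. -/
theorem bq_e1_tau (j : Pt) : bq (e1 j) * tau * bq (e1 j) = tau⁻¹ := by
  have e : bq (e1 j) = bq (e1 none) * bq (e1 none + e1 j) := by rw [← bq_add, ← add_assoc, w_add_self, zero_add]
  rw [← MN.bt, e, mul_assoc (bq _), ← tau_comm_bq (pair_dot_one _ _), bq_comm (e1 none), mul_assoc, mul_assoc,
    ← mul_assoc (bq _) (bq _) (bq _), bq_mul_self, one_mul, mul_assoc]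

theorem bq_e1_semi (j : Pt) : SemiconjBy (bq (e1 j)) tau tau⁻¹ := by
  rw [SemiconjBy, ← bq_e1_tau j, mul_assoc _ _ (bq _), bq_mul_self, mul_one]

theorem tau_conj_mem {g : Aut} (h : g ∈ NV) : tau * g * tau⁻¹ ∈ NV := MN.nor g h

theorem fin_tau : IsOfFinOrder tau := isOfFinOrder_iff_pow_eq_one.2 ⟨3, by decide, tau_pow_three⟩

theorem tau_inv_conj (g : Aut) : tau⁻¹ * g * tau = tau * (tau * g * tau⁻¹) * tau⁻¹ := by
  rw [← mul_assoc, ← mul_assoc, tau_mul_tau, mul_assoc _ tau⁻¹, tau_inv_mul]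

theorem tau_inv_conj_mem {g : Aut} (h : g ∈ NV) : tau⁻¹ * g * tau ∈ NV :=
  tau_inv_conj g ▸ tau_conj_mem (tau_conj_mem h)

theorem yq_mem (s : ZMod 2) (d : Cd) : yq s d ∈ NV := tau_conj_mem (xq_mem s d)

theorem tau_conj_zp (s : ZMod 2) : tau * qV (zp s) * tau⁻¹ = qV (qe 0 (s • Om) 0) := by
  rcases z2_cases s with rfl | rfl
  · rw [zp_zero, map_one, mul_one, mul_inv_cancel, zero_smul, ← bq, bq_zero]
  · rw [zp_one, tau_conj_zQ, aOm_eq]

theorem tau_inv_conj_zp (s : ZMod 2) : tau⁻¹ * qV (zp s) * tau = qV (qe s (s • Om) 0) := by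
  rcases z2_cases s with rfl | rfl
  · rw [zp_zero, map_one, mul_one, inv_mul_cancel, zero_smul, ← bq, bq_zero]
  · rw [zp_one, ← tau_conj_zaOm, zQ_mul_aOm]; simp only [mul_assoc, inv_mul_cancel_left, inv_mul_cancel, mul_one]

theorem tau_conj_A (s n : ZMod 2) {δ : W} (h : δ ⬝ᵥ 1 = 0) :
    tau * qV (qe s (n • Om) δ) * tau⁻¹ = qV (qe n ((s + n) • Om) δ) := by
  have e : tau * qV (qe 0 (n • Om) 0) * tau⁻¹ = qV (qe n (n • Om) 0) := by
    rw [← tau_conj_zp, ← tau_inv_conj, tau_inv_conj_zp]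
  rw [qe_Om, qe_Om n, map_mul, map_mul, ← _root_.conj_mul, ← bq, tau_conj_bq h, ← add_zero s, ← zp_mul_qe, map_mul,
    ← _root_.conj_mul, tau_conj_zp, e, qV_A_mul _ _ _ _ (by simp), zero_add, add_zero, add_zero]

theorem dp_tau : Dp tau 1 := fun s n _ h => ⟨_, _, tau_conj_A s n h⟩

variable {g k : Aut} {σ ρ : M24} {c d : Cd}

theorem Dp.tau (h : Dp g σ) : Dp (tau * g * tau⁻¹) σ := by simpa using (dp_tau.mul h).mul (dp_tau.inv fin_tau)

/-- `Q ∩ Q ^ τ` lies over `ω` and the even cocode. -/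
theorem eq_A {p q : Q} (h : tau * qV p * tau⁻¹ = qV q) : ∃ (s n : ZMod 2) (δ : W), δ ⬝ᵥ 1 = 0 ∧ p = qe s (n • Om) δ := by
  obtain ⟨s, d, δ, rfl⟩ := qe_surj p
  have h1 := comm_z (qV_mem q)
  rw [← h, ← tau_conj_zw, _root_.conj_mul, _root_.conj_mul, mul_left_inj, mul_right_inj, ← mul_assoc,
    comm_z (qV_mem _), mul_assoc, mul_assoc, mul_right_inj] at h1
  refine ⟨s, _, δ, qV_mem_NV.1 (mem_NV.2 ⟨qV_mem _, h1⟩), congrArg (qe s · δ) (eq_Om fun ε e => ?_)⟩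
  have h2 := qV_conj q (qe 0 0 ε)
  rw [← h, ← bq, ← tau_conj_bq e, conj_inv, _root_.conj_mul, _root_.conj_mul, bq, qV_conj, ← _root_.conj_mul,
    mul_left_inj, tau_conj_zp] at h2
  simpa using congr((($(qV_injective h2)).d : W) none)

/-- `Q ∩ C(τ)` is the even cocode. -/
theorem eq_bq_of_comm {q : Q} (h : tau * qV q = qV q * tau) : ∃ δ, δ ⬝ᵥ 1 = 0 ∧ qV q = bq δ := by
  obtain ⟨s, n, δ, h1, rfl⟩ := eq_A (mul_inv_eq_iff_eq_mul.2 h)
  obtain ⟨rfl, h2, -⟩ := qe_eq_iff.1 (qV_injective ((tau_conj_A s n h1).symm.trans (mul_inv_eq_iff_eq_mul.2 h)))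
  obtain rfl : n = 0 := by simpa using congr((($h2 : Cd) : W) none).symm
  exact ⟨δ, h1, by rw [zero_smul, bq]⟩

theorem exists_xp (σ : M24) : ∃ g ∈ NV, tau * g = g * tau ∧ Dp g σ := by
  classical
  let R : Subgroup Aut := ⟨⟨⟨{g | g ∈ NV ∧ Dp g 1}, fun h h' => ⟨mul_mem h.1 h'.1, by simpa using h.2.mul h'.2⟩⟩,
    one_mem _, dp_one⟩, fun h => ⟨inv_mem h.1, by simpa using h.2.inv (fin_of_mem h.1.1)⟩⟩
  have : Finite R := Finite.of_injective (inclusion (show R ≤ CZ from fun _ h => h.1.1)) (inclusion_injective _)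
  obtain ⟨n, hn⟩ := IsPGroup.iff_card.1 (show IsPGroup 2 R from fun ⟨g, h1, h2⟩ => ⟨3, Subtype.ext (pow_eight h1 h2)⟩)
  obtain ⟨g, h1, h2⟩ := exists_NV σ 0
  let e : R ≃ {g // g ∈ NV ∧ Dp g σ} := (Equiv.mulLeft g).subtypeEquiv fun x =>
    ⟨fun h => ⟨mul_mem h1 h.1, by simpa using h2.dp.mul h.2⟩, fun h =>
      ⟨(mul_mem_cancel_left h1).1 h.1, by simpa using (h2.dp.inv (fin_of_mem h1.1)).mul h.2⟩⟩
  have := Finite.of_equiv _ e
  have := Fintype.ofFinite {g // g ∈ NV ∧ Dp g σ}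
  obtain ⟨x, hx⟩ := Equiv.Perm.exists_fixed_point_of_prime (p := 3) (n := 1) (α := {g // g ∈ NV ∧ Dp g σ})
    (σ := Equiv.Perm.subtypePerm (MulAut.conj tau).toEquiv fun x =>
      ⟨fun h => ⟨by simpa [mul_assoc] using tau_inv_conj_mem h.1, by
        simpa [mul_assoc] using ((dp_tau.inv fin_tau).mul h.2).mul dp_tau⟩, fun h => ⟨tau_conj_mem h.1, h.2.tau⟩⟩)
    (by
      rw [← Nat.card_eq_fintype_card, ← Nat.card_congr e, hn]
      exact fun h => absurd (Nat.prime_three.dvd_of_dvd_pow h) (by decide))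
    (Equiv.ext fun x => Subtype.ext (by
      change tau * (tau * (tau * x * tau⁻¹) * tau⁻¹) * tau⁻¹ = x
      rw [← tau_inv_conj]; group))
  exact ⟨x, x.2.1, mul_inv_eq_iff_eq_mul.1 (congrArg Subtype.val hx), x.2.2⟩

/-- an element of `C(z, ω, τ)` over `σ ∈ M₂₄` -/
noncomputable def xp (σ : M24) : Aut := (exists_xp σ).choose

theorem xp_mem (σ : M24) : xp σ ∈ NV := (exists_xp σ).choose_spec.1
theorem tau_comm_xp (σ : M24) : tau * xp σ = xp σ * tau := (exists_xp σ).choose_spec.2.1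
theorem dp_xp (σ : M24) : Dp (xp σ) σ := (exists_xp σ).choose_spec.2.2

theorem conj_bq_e1 (h : g ∈ NV) (h1 : tau * g = g * tau) (h2 : Dp g σ) (i : Pt) :
    g * bq (e1 i) * g⁻¹ = bq (e1 ((σ : Equiv.Perm Pt) i)) ∧ Ind g σ 0 := by
  obtain ⟨_, c, k⟩ := exists_ind_NV h
  replace k := k.of_dp h2
  obtain ⟨s, e⟩ := k.eW 0 i
  rw [eW_zero, ← bq, sC_zero, add_zero] at e
  have h3 := bq_e1_semi
  obtain ⟨δ, -, h4⟩ := eq_bq_of_comm (q := zp s * eW c ((σ : Equiv.Perm Pt) i) * qe 0 0 (e1 ((σ : Equiv.Perm Pt) i))) (by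
    rw [map_mul, ← e, ← bq]
    exact (SemiconjBy.mul_left (SemiconjBy.mul_left (SemiconjBy.mul_left (Commute.symm h1) (by simpa using (h3 i).inv_right))
      (Commute.symm h1).inv_inv) (h3 _)).symm)
  have h5 := congrArg Q.d (qV_injective h4)
  have h6 := congrArg Q.s (qV_injective h4)
  simp only [eW, mul_d, mul_s, zp_s, zp_d, qe_s, qe_d, zero_add, add_zero, pr_zero, map_zero, zp_c] at h5 h6
  have h7 : c = 0 ∨ c = Om := by
    rcases z2_cases (qw c + (c : W) ((σ : Equiv.Perm Pt) i)) with k | k <;> rw [k] at h5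
    exacts [.inl (by simpa using h5), .inr (by rw [← add_add_cd c Om, ← one_smul (ZMod 2) Om, h5]; simp)]
  subst h6
  rcases h7 with rfl | rfl
  · exact ⟨by rw [e, zp_zero, one_mul, eW_zero, bq], k⟩
  · exact ⟨by rw [e, zp_zero, one_mul, ← zero_add Om, eW_add_Om, eW_zero, bq], by simpa using k.add_Om⟩

theorem ind_xp (σ : M24) : Ind (xp σ) σ 0 := (conj_bq_e1 (xp_mem σ) (tau_comm_xp σ) (dp_xp σ) none).2

theorem xp_bq (σ : M24) (δ : W) : xp σ * bq δ * (xp σ)⁻¹ = bq (sW σ δ) := by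
  induction δ using w_induction with
  | h0 => rw [bq_zero, mul_one, mul_inv_cancel]; exact bq_zero.symm
  | h1 i => rw [sW_e1]; exact (conj_bq_e1 (xp_mem σ) (tau_comm_xp σ) (dp_xp σ) i).1
  | ha u v hu hv => rw [sW_add, bq_add, bq_add, ← hu, ← hv, _root_.conj_mul]

theorem xp_xq (σ : M24) (s : ZMod 2) (d : Cd) : ∃ t, xp σ * xq s d * (xp σ)⁻¹ = xq t (sC σ d) := (ind_xp σ).xq s d

theorem cube_xp (σ : M24) (h : (g * tau) ^ 3 = 1) : (xp σ * g * (xp σ)⁻¹ * tau) ^ 3 = 1 := by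
  rw [mul_assoc, (Commute.symm (tau_comm_xp σ)).inv_left, ← mul_assoc, mul_assoc (xp σ), conj_pow, h, mul_one,
    mul_inv_cancel]

theorem cube_mul {q : Q} (hq : qV q ∈ NV) (s n : ZMod 2) {γ : W} (h : γ ⬝ᵥ 1 = 0) :
    (qV (qe s (n • Om) γ) * qV q * tau) ^ 3 = qV (qe 0 (((q.d : W) ⬝ᵥ γ) • Om) γ) * (qV q * tau) ^ 3 := by
  have e (s n : ZMod 2) : qV q * tau * qV (qe s (n • Om) γ) * (qV q * tau)⁻¹ =
      qV (qe ((q.d : W) ⬝ᵥ γ + n) ((s + n) • Om) γ) := by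
    obtain ⟨t, d, δ, rfl⟩ := qe_surj q
    rw [_root_.mul_inv_rev, mul_assoc (qV _), mul_assoc (qV _), ← mul_assoc (_ * _), tau_conj_A _ _ h,
      ← mul_assoc, qV_conj, ← map_mul, zp_mul_qe]
    simp [dotProduct_comm 1 δ, qV_mem_NV.1 hq]
  rw [mul_assoc]
  generalize qV q * tau = T at e
  calc _ = qV (qe s (n • Om) γ) * (T * qV (qe s (n • Om) γ) * T⁻¹) *
      (T * (T * qV (qe s (n • Om) γ) * T⁻¹) * T⁻¹) * T ^ 3 := by simp only [pow_succ, pow_zero, one_mul]; group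
    _ = _ := by
      rw [e, e, qV_A_mul _ _ _ _ h, qV_A_mul _ _ _ _ (by rw [w_add_self, zero_dotProduct]), w_add_self, zero_add,
        show ∀ a b c : ZMod 2, a + (c + b) + (c + (a + b)) = 0 by decide,
        show ∀ a b c : ZMod 2, b + (a + b) + (c + b + (a + b)) = c by decide]

theorem cube_eq_one (hg : g ∈ NV) {s n : ZMod 2} (h : (g * tau) ^ 3 = qV (qe s (n • Om) 0)) : (g * tau) ^ 3 = 1 := by
  have c : Commute g (qV (qe s (n • Om) 0)) := by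
    rcases z2_cases s with rfl | rfl <;> rcases z2_cases n with rfl | rfl
    · rw [zero_smul, ← bq, bq_zero]; exact .one_right _
    · exact aOm_eq ▸ (mem_NV.1 hg).2
    · exact zQ_eq ▸ NV_z hg
    · rw [← zQ_mul_aOm, map_mul]; exact Commute.mul_right (NV_z hg) (mem_NV.1 hg).2
  obtain ⟨δ, -, e⟩ := eq_bq_of_comm (q := qe s (n • Om) 0) (by
    rw [← inv_mul_cancel_left g tau]; exact c.inv_left.mul_left (h ▸ (Commute.refl (g * tau)).pow_right 3))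
  rw [h, e, bq_eq_one.2 (by simpa using (qe_eq_iff.1 (qV_injective e)).2.2)]

theorem bq_conj_tau (j : Pt) (g : Aut) :
    bq (e1 j) * (tau * g * tau⁻¹) * bq (e1 j) = tau⁻¹ * (bq (e1 j) * g * bq (e1 j)) * tau := by
  rw [mul_assoc _ _ (bq _), mul_assoc _ tau⁻¹, ← bq_e1_semi j, ← mul_assoc, ← mul_assoc, ← mul_assoc, bq_e1_semi j]
  simp only [mul_assoc]

theorem exists_cube {q : Q} (hq : qV q ∈ NV) : ∃ γ : W, γ ⬝ᵥ 1 = 0 ∧ (bq γ * qV q * tau) ^ 3 = 1 := by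
  obtain ⟨p, e⟩ : (qV q * tau) ^ 3 ∈ qV.range := by
    let y : CZ := ⟨_, NV_le (tau_conj_mem hq)⟩
    let w : CZ := ⟨_, NV_le (tau_inv_conj_mem hq)⟩
    have k (p : Q) : rhoC ⟨_, qV_mem p⟩ = 1 := rhoC_eq_one.2 ⟨_, rfl⟩
    obtain ⟨p, h1⟩ : ∃ p, ⟨_, qV_mem (qe 0 0 (e1 none))⟩ * y * ⟨_, qV_mem (qe 0 0 (e1 none))⟩ = ⟨_, qV_mem p⟩ * w :=
      ⟨_, Subtype.ext ((bq_conj_tau none _).trans (by
        nth_rw 2 [← bq_inv]
        rw [bq, qV_conj]
        refine .trans ?_ (congrArg (· * w.1) (tau_inv_conj_zp (pr (0 : Cd) q.c + pr q.d (cs (e1 none)))))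
        simp only [w, mul_assoc, mul_inv_cancel_left]; rfl))⟩
    have h2 : rhoC (y * y) = 1 := rhoC_eq_one.2 (by
      rw [Subgroup.coe_mul, _root_.conj_mul, ← map_mul, mul_self_eq, tau_conj_zp]; exact ⟨_, rfl⟩)
    replace h1 := congrArg rhoC h1
    simp only [map_mul, k, one_mul, mul_one] at h1 h2
    have := (rhoC_eq_one (g := ⟨_, qV_mem q⟩ * y * w)).1 (by rw [map_mul, map_mul, k, one_mul, ← h1, h2])
    convert this using 1
    simp only [y, w, Subgroup.coe_mul, pow_succ, pow_zero, one_mul, mul_assoc, ← mul_assoc tau⁻¹ tau⁻¹, tau_inv_mul]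
  obtain ⟨s, n, γ, h, rfl⟩ := eq_A (p := p) (q := q⁻¹ * p * q) (by
    rw [map_mul, map_mul, map_inv, e]; simp only [pow_succ, pow_zero, one_mul]; group)
  refine ⟨γ, h, cube_eq_one (mul_mem (bq_mem h) hq) (s := s) (n := (q.d : W) ⬝ᵥ γ + n) ?_⟩
  rw [bq, ← zero_smul (ZMod 2) Om, cube_mul hq _ _ h, ← e, qV_A_mul _ _ _ _ h, zero_add, w_add_self]

theorem code_of_cube {q : Q} (hq : qV q ∈ NV) {s n : ZMod 2} {γ : W} (h : γ ⬝ᵥ 1 = 0) (h1 : (qV q * tau) ^ 3 = 1)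
    (h2 : (qV (qe s (n • Om) γ) * qV q * tau) ^ 3 = 1) : γ ∈ golayCode := by
  rw [cube_mul hq _ _ h, h1, mul_one, ← map_one qV] at h2
  exact cs_eq_zero.1 (congrArg Q.c (qV_injective h2))

theorem cube_sign {s : ZMod 2} (h : (xq s d * tau) ^ 3 = 1) (t : ZMod 2) : (xq t d * tau) ^ 3 = 1 := by
  have := cube_mul (xq_mem s d) (t + s) 0 (γ := 0) (by simp)
  rwa [← xq, h, dotProduct_zero, zero_smul, ← bq, bq_zero, mul_one, xq, ← map_mul, qe_mul, dotProduct_zero, add_zero,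
    zero_add, zero_add, add_assoc, z2_add_self, add_zero] at this

theorem xyz' {x : Aut} (h : (x * tau) ^ 3 = 1) :
    x * (tau * x * tau⁻¹) * (tau * (tau * x * tau⁻¹) * tau⁻¹) = 1 := by
  rw [← h, ← mul_one (_ * (_ * _ * _)), ← tau_pow_three]
  simp only [pow_succ, pow_zero, one_mul, mul_assoc, inv_mul_cancel_left]

section

variable {e : Cd} (he : ∀ s, (xq s e * tau) ^ 3 = 1)
include he

theorem yq_comm_xq (s : ZMod 2) : yq s e * xq s e = xq s e * yq s e := by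
  have h1 := congrArg (fun x => bq (e1 none) * x * bq (e1 none)) (xyz' (he ((e : W) ⬝ᵥ e1 none + s)))
  have m (a b) : bq (e1 none) * (a * b) * bq (e1 none) =
      bq (e1 none) * a * bq (e1 none) * (bq (e1 none) * b * bq (e1 none)) := by
    simp only [mul_assoc, ← mul_assoc (bq _) (bq _), bq_mul_self, one_mul]
  simp only [mul_one, bq_mul_self] at h1
  rw [m, m, bq_conj_tau, bq_conj_tau, bq_conj_tau, bq_conj_xq, ← add_assoc, z2_add_self, zero_add, tau_inv_conj (xq s e),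
    ← xyz' (he s), mul_assoc, mul_assoc (xq s e), mul_right_inj] at h1
  rw [yq, ← mul_left_inj tau⁻¹, ← mul_right_inj tau]
  convert h1 using 1 <;> group

theorem yq_conj_bq' (s : ZMod 2) (i : Pt) : yq s e * bq (e1 i) * (yq s e)⁻¹ =
    xq s e * qV (qe 0 (qw e • Om) 0) * qV (qe ((e : W) i) ((e : W) i • Om) 0) * bq (e1 i) := by
  have h1 := yq_comm_xq he s
  have h2 : yq s e * yq s e = qV (qe 0 (qw e • Om) 0) := by rw [yq, _root_.conj_mul, xq_mul_self, tau_conj_zp]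
  have h3 : xq s e * yq s e = tau⁻¹ * (xq s e)⁻¹ * tau := by
    rw [yq, eq_inv_of_mul_eq_one_left (xyz' (he s)), ← tau_inv_conj]
    simp only [_root_.mul_inv_rev, inv_inv, mul_assoc]
  have h4 : bq (e1 i) * (xq s e)⁻¹ = (xq s e)⁻¹ * qV (zp ((e : W) i)) * bq (e1 i) := by
    have := bq_conj_xq (e1 i) s e
    rw [xq_add, dot_e1] at this
    rw [← inv_inv (qV _), ← _root_.mul_inv_rev, ← map_inv, inv_eq_of_mul_eq_one_right (a := zp _)
      (by rw [← zp_add, z2_add_self, zp_zero]), ← this]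
    simp only [_root_.mul_inv_rev, bq_inv, mul_assoc, bq_mul_self, mul_one]
  rw [← h2, ← tau_inv_conj_zp, ← mul_assoc (xq s e), ← h1, mul_assoc (yq s e) (xq s e), h3, mul_assoc (yq s e),
    mul_assoc (yq s e), mul_assoc (yq s e), mul_right_inj, yq, conj_inv, ← mul_assoc, ← mul_assoc, bq_e1_semi i,
    mul_assoc _ (bq _), h4, mul_assoc, mul_assoc, mul_assoc, (bq_e1_semi i).inv_right, inv_inv]
  simp only [mul_assoc, mul_inv_cancel_left]

theorem ind_yq' (s : ZMod 2) : Ind (yq s e) 1 e := by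
  obtain ⟨_, c, k⟩ := exists_ind_NV (yq_mem s e)
  replace k := k.of_dp (ind_qV _).dp.tau
  obtain ⟨t, h⟩ := k.eW 0 none
  rw [eW_zero, ← bq, yq_conj_bq' he, xq, bq, ← map_mul, ← map_mul, ← map_mul] at h
  have h1 := congrArg Q.d (qV_injective h)
  simp only [eW, mul_d, qe_d, zp_d, add_zero, zero_add, sC_zero, add_assoc, ← add_smul] at h1
  rw [← sub_eq_iff_eq_add, add_sub_assoc, ← sub_smul] at h1
  obtain ⟨n, h1⟩ : ∃ n : ZMod 2, e + n • Om = c := ⟨_, h1⟩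
  rcases z2_cases n with rfl | rfl
  · rwa [← h1, zero_smul, add_zero] at k
  · simpa [← h1, add_assoc] using k.add_Om

theorem yq_mul_xq' (hd : ∀ s, (xq s d * tau) ^ 3 = 1) (t s : ZMod 2) :
    yq t e * xq s d = qV (qe (hw ((d : W) * e)) (hw ((d : W) * e) • Om) ((d : W) * e)) * (xq s d * yq t e) ∧
      (xq (s + t + (e : W) ⬝ᵥ th d) (d + e) * tau) ^ 3 = 1 := by
  obtain ⟨r, h1⟩ := (ind_yq' he t).conj' (mo_xq s d e)
  have ev := mul_dot_one d e
  have b1 : Commute (xq s d) (bq ((d : W) * e)) := xq_comm_bq.2 (by rw [dot_mul, w_mul_self, dot_code])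
  have b2 : Commute (xq t e) (bq ((d : W) * e)) := xq_comm_bq.2 (by rw [mul_comm, dot_mul, w_mul_self, dot_code])
  have b3 : Commute tau (bq ((d : W) * e)) := tau_comm_bq ev
  have h2 : xq s d * xq t e * (xq s d)⁻¹ = qV (zp (hw ((d : W) * e))) * xq t e := by
    rw [xq, xq, qV_conj]; simp only [qe_d, qe_c, pr_cs]; rw [add_comm, th_comm]
  have h3 := congrArg (fun x => tau * x * tau⁻¹) h2
  simp only [← _root_.conj_mul, ← conj_inv, tau_conj_zp, ← yq.eq_1] at h3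
  rw [← mul_assoc, zp_mul_qe, add_zero, map_mul, ← xq] at h1
  have h4 : (xq (s + t + (e : W) ⬝ᵥ th d) (d + e) * tau) ^ 3 = qV (qe (r + hw ((d : W) * e)) ((0 : ZMod 2) • Om) 0) := by
    have k1 := eq_inv_of_mul_eq_one_right (xyz' (hd s))
    have k2 := eq_inv_of_mul_eq_one_right (xyz' (he t))
    rw [← yq] at k1 k2
    rw [← mul_inv_eq_iff_eq_mul.2 (xq_mul s t d e), bq_inv, mul_assoc, ← b3.eq, ← mul_assoc,
      ((b1.mul_left b2).mul_left b3).mul_pow, show (xq s d * xq t e * tau) ^ 3 = xq s d * xq t e *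
        (yq s d * yq t e) * (tau * yq s d * tau⁻¹ * (tau * yq t e * tau⁻¹)) * tau ^ 3 by
        simp only [yq, pow_succ, pow_zero, one_mul]; group, k1, k2, tau_pow_three]
    calc _ = xq s d * xq t e * (yq s d * yq t e * (yq s d)⁻¹ * (yq t e)⁻¹) * (yq t e * xq s d * (yq t e)⁻¹)⁻¹ *
          (xq t e)⁻¹ * bq ((d : W) * e) ^ 3 := by group
      _ = _ := by
        rw [h3, mul_inv_cancel_right, h1, pow_three, bq_mul_self, mul_one]
        have := th_comm d e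
        have : ((e : W) * (d : W)) ⬝ᵥ (e : W) = 0 := by rw [mul_comm, ← dot_mul, w_mul_self, dot_code]
        simp only [xq, bq, ← map_mul, ← map_inv]
        refine congrArg qV (Q.ext ?_ ?_ ?_)
        · simp [pr_add, dotProduct_comm 1, ev, th_self, dot_mul, th_dot_one]
          grind
        · simp [add_comm, add_left_comm]
        · simp [add_comm, add_left_comm]
  have h5 := cube_eq_one (xq_mem _ _) h4
  rw [h5, ← map_one qV] at h4
  obtain rfl : r = hw ((d : W) * e) := z2_eq_iff.2 (congrArg Q.s (qV_injective h4)).symm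
  exact ⟨by rw [← mul_assoc, ← h1, inv_mul_cancel_right], h5⟩

end

theorem xq_tau_cube (s : ZMod 2) (d : Cd) : (xq s d * tau) ^ 3 = 1 := by
  have tr (σ : M24) {d} (h : ∀ s, (xq s d * tau) ^ 3 = 1) (s) : (xq s (sC σ d) * tau) ^ 3 = 1 :=
    let ⟨_, e⟩ := xp_xq σ 0 d
    cube_sign (e ▸ cube_xp σ (h 0)) s
  have F : Mathieu.InvFam {c | ∃ d : Cd, support₂ d = c ∧ ∀ s, (xq s d * tau) ^ 3 = 1} :=
    ⟨⟨0, by simp [support₂], cube_sign (s := 0) (by rw [xq_zero, zp_zero, map_one, one_mul, tau_pow_three])⟩, by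
      rintro _ ⟨d, rfl, a⟩ _ ⟨e, rfl, b⟩
      exact ⟨d + e, Golay.support₂_add _ _, cube_sign (yq_mul_xq' b a 0 0).2⟩, by
      rintro σ _ ⟨d, rfl, a⟩
      exact ⟨sC σ d, support_sW _ _, tr σ a⟩⟩
  obtain ⟨O, hO, k⟩ := MT.exists_oct
  obtain ⟨γ, h1, h2⟩ := exists_cube (xq_mem 0 O)
  rw [← xq] at h2
  have h3 := bq_code (k γ h1 fun σ e => by
    obtain ⟨t, a⟩ := xp_xq σ 0 O
    have h3 := cube_xp σ h2
    rw [← _root_.conj_mul, xp_bq, a, e] at h3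
    refine code_of_cube (q := qe 0 0 γ * qe 0 O (th O)) (s := t) (n := 0) (map_mul qV _ _ ▸ mul_mem (bq_mem h1) (xq_mem _ _))
      (by rw [add_dotProduct, h1, sW_even σ h1, add_zero]) (map_mul qV _ _ ▸ h2) ?_
    rw [← h3, bq, xq, ← map_mul, ← map_mul]
    refine congrArg (fun x => (qV x * tau) ^ 3) (Q.ext (by simp; grind) (by simp) ?_)
    simp only [mul_c, qe_c, ← cs_add, ← add_assoc, add_right_comm γ _ γ, w_add_self, zero_add])
  rw [h3, one_mul] at h2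
  obtain ⟨d', e, k⟩ := F.of_octad (Golay.mem_octads.2 ⟨support_mem_GC O.2, hO⟩) ⟨O, rfl, cube_sign h2⟩ (support_mem_GC d.2)
  exact Subtype.ext (Golay.support₂_injective e) ▸ k s

/-- `x_d y_d z_d = 1` -/
theorem xyz (s : ZMod 2) (d : Cd) : xq s d * yq s d * (tau * yq s d * tau⁻¹) = 1 := xyz' (xq_tau_cube s d)

/-- `[y_e, x_d] = (z ω) ^ (|d ∩ e| / 2) b_{d ∩ e}` -/
theorem yq_mul_xq (t s : ZMod 2) (e d : Cd) : yq t e * xq s d =
    qV (qe (hw ((d : W) * e)) (hw ((d : W) * e) • Om) ((d : W) * e)) * (xq s d * yq t e) :=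
  (yq_mul_xq' (xq_tau_cube · e) (xq_tau_cube · d) t s).1

theorem ind_yq (s : ZMod 2) (e : Cd) : Ind (yq s e) 1 e := ind_yq' (xq_tau_cube · e) s

theorem eq_xq_of_cube {q : Q} (h : qV q ∈ NV) (h3 : (qV q * tau) ^ 3 = 1) : ∃ s d, qV q = xq s d := by
  obtain ⟨s, d, γ, h1, e⟩ := exists_xq_bq h
  refine ⟨s, d, ?_⟩
  rw [e, bq_code (code_of_cube (xq_mem s d) (s := (d : W) ⬝ᵥ γ) (n := 0) h1 (xq_tau_cube s d) ?_), mul_one]
  rw [← h3, e, xq, bq, ← map_mul, ← map_mul]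
  refine congrArg (fun x => (qV x * tau) ^ 3) (Q.ext ?_ ?_ ?_) <;> simp [add_comm]
  grind

/-- An involution `x` centralizing `z`, `ω` and one `b_i` with `(x τ) ^ 3 = 1` is some `± x_d`. -/
theorem eq_xq {x : Aut} (h : x ∈ NV) (h2 : x * x = 1) (h3 : (x * tau) ^ 3 = 1) {i : Pt}
    (hi : x * bq (e1 i) = bq (e1 i) * x) : ∃ s d, x = xq s d := by
  obtain ⟨σ, c, k⟩ := exists_ind_NV h
  have k2 : σ * σ = 1 := (k.dp.mul k.dp).unique (h2 ▸ dp_one)
  have k3 : (σ * 1) ^ 3 = 1 := ((k.dp.mul dp_tau).pow 3).unique (h3 ▸ dp_one)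
  rw [mul_one, pow_succ, sq, k2, one_mul] at k3
  obtain ⟨q, rfl⟩ := ind_one_iff.1 (k3 ▸ (k.fix hi).2)
  exact eq_xq_of_cube h h3

/-- A subgroup containing `Q`, `τ` and the `x_π` contains the stabilizer of the standard frame. -/
theorem mem_of_ind {K : Subgroup Aut} (h1 : ∀ q, qV q ∈ K) (h2 : tau ∈ K) (h3 : xp σ ∈ K) (h : Ind g σ c) : g ∈ K := by
  have k := (ind_yq 0 c).mul (ind_xp σ)
  rw [one_mul, sC_zero, add_zero] at k
  obtain ⟨q, e⟩ := (rhoC_eq_one (g := ⟨_, k.1⟩⁻¹ * ⟨g, h.1⟩)).1 (by rw [map_mul, map_inv, k.2, h.2, inv_mul_cancel])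
  rw [← mul_inv_cancel_left (yq 0 c * xp σ) g, show (yq 0 c * xp σ)⁻¹ * g = _ from e.symm]
  exact mul_mem (mul_mem (mul_mem (mul_mem h2 (h1 _)) (inv_mem h2)) h3) (h1 q)

end Cfsg.Lib.Griess.MA
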